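import Cfsg.Agent.L0.KS12a

/-! Straddling subgroups. -/

set_option autoImplicit false
set_option linter.unusedSectionVars false

namespace Cfsg.KS12

open Subgroup Cfsg.H7
open Cfsg.H9 (MaxEA)
open scoped commutatorElement

variable {G : Type*} [Group G] [Finite G]

theorem spe_iff_strad (hO : pCore 2 G = ⊥) {M : Subgroup G} (hM : IsTwoLocal M) :
    H9.SPE 2 M ⊤ ↔ straddlingTwoSubgroups M = ∅ := by
  constructor
  · intro h
    refine Set.eq_empty_iff_forall_notMem.mpr ?_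
    rintro T ⟨h1, h2, h3, _, ⟨R, r1, r2, rfl⟩, h4, h5⟩
    have h6 : T ⊔ R ≤ M := h.le_of_inf_ne_bot (isPGroup_sup h4 h1 r1) le_top
      (ne_bot_of_le (le_inf le_sup_left h3) h2)
    exact h5 ((le_inf le_top le_rfl).trans (h.norm R (le_sup_right.trans h6) r1 r2))
  · intro h
    refine ⟨le_top, IsTwoLocal.ne_top hO hM, H9.dvd_card_of_isPGroup (isPGroup_pCoreOf 2 M)
      (IsTwoLocal.O2_ne_bot hM) (pCoreOf_le 2 M), fun A h1 h2 h3 => ?_⟩
    by_contra hc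
    have : A ∈ straddlingTwoSubgroups M := ⟨h2, h3, h1, _, isTwoLocal_normalizer h2 h3,
      le_normalizer, fun h4 => hc (inf_le_right.trans h4)⟩
    rw [h] at this
    exact this

theorem strad_cj {M T : Subgroup G} (h : T ∈ straddlingTwoSubgroups M) {g : G} (hg : g ∈ M) :
    cj g T ∈ straddlingTwoSubgroups M := by
  obtain ⟨h1, h2, h3, L, h4, h5, h6⟩ := h
  refine ⟨isPGroup_cj h1, fun e => h2 (cj_eq_bot_iff.mp e), cj_le_of_le' hg h3, cj g L,
    IsTwoLocal.cj' h4 g, cj_mono h5, fun h7 => h6 ?_⟩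
  rwa [cj_le_iff, cj_eq_of_mem (inv_mem hg)] at h7

theorem maxEl_cj (g : G) (T : Subgroup G) :
    maxElemAbelianOrder (cj g T) = maxElemAbelianOrder T := by
  obtain ⟨A, hA⟩ := H9.exists_maxEA 2 T
  rw [hA.maxElemAbelianOrder_eq, (hA.cj g).maxElemAbelianOrder_eq, card_cj]

theorem maxStrad_cj {M T : Subgroup G} (h : T ∈ maxStraddlingTwoSubgroups M) {g : G} (hg : g ∈ M) :
    cj g T ∈ maxStraddlingTwoSubgroups M := by
  refine ⟨strad_cj h.1 hg, fun T' hT' => ?_⟩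
  rw [maxEl_cj, H9.card_J_cj, card_cj]
  exact h.2 T' hT'

theorem exists_maxStrad {M : Subgroup G} (h : (straddlingTwoSubgroups M).Nonempty) :
    (maxStraddlingTwoSubgroups M).Nonempty := by
  obtain ⟨T, hT, hm⟩ := Set.exists_max_image (straddlingTwoSubgroups M)
    (fun T => toLex (maxElemAbelianOrder T, toLex (Nat.card (J T), Nat.card T))) (Set.toFinite _) h
  refine ⟨T, hT, fun T' hT' => ?_⟩
  have := hm T' hT'
  simp only [Prod.Lex.toLex_le_toLex] at this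
  unfold J at this
  omega

theorem maxStrad_J {M T T₁ : Subgroup G} (h : T ∈ maxStraddlingTwoSubgroups M)
    (h1 : T₁ ∈ straddlingTwoSubgroups M) (hle : J T ≤ T₁) :
    J T₁ = J T ∧ Nat.card T₁ ≤ Nat.card T := by
  obtain ⟨A, hA⟩ := H9.exists_maxEA 2 T
  obtain ⟨B, hB⟩ := H9.exists_maxEA 2 T₁
  obtain ⟨a1, a2⟩ := h.2 T₁ h1
  rw [hA.maxElemAbelianOrder_eq, hB.maxElemAbelianOrder_eq] at a1 a2
  have e := le_antisymm a1 (hB.max A (hA.le_J.trans hle) hA.ea)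
  have h2 : J T ≤ J T₁ := H9.J_le_iff.mpr fun C hC =>
    (hB.of_card_le (hC.le_J.trans hle) hC.ea (by rw [e, hA.card_eq hC])).le_J
  have e2 := eq_of_le_of_card_le h2 (a2 e).1
  exact ⟨e2.symm, (a2 e).2 (by unfold J at e2; rw [e2])⟩

/-- if `J(S)` straddles `M` then `J(T) = J(S)` for `T ≤ S` maximal -/
theorem maxStrad_J_eq {M T S : Subgroup G} (h : T ∈ maxStraddlingTwoSubgroups M)
    (h1 : J S ∈ straddlingTwoSubgroups M) (hle : T ≤ S) : J T = J S := by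
  obtain ⟨A, hA⟩ := H9.exists_maxEA 2 T
  obtain ⟨B, hB⟩ := H9.exists_maxEA 2 S
  obtain ⟨a1, a2⟩ := h.2 _ h1
  rw [hA.maxElemAbelianOrder_eq,
    (hB.mono hB.le_J (H9.J_le 2 S)).maxElemAbelianOrder_eq] at a1 a2
  have e := le_antisymm a1 (hB.max A (hA.le.trans hle) hA.ea)
  have h2 : J T ≤ J S := (hB.of_card_le (hA.le.trans hle) hA.ea a1).J_le_J hA.le hle
  have := (a2 e).1
  rw [H9.J_J] at this
  exact eq_of_le_of_card_le h2 this

theorem eq_of_normalizer_le {S T : Subgroup G} (hS : IsPGroup 2 S) (h : T ≤ S)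
    (h1 : S ⊓ normalizer (T : Set G) ≤ T) : T = S := by
  by_contra hne
  exact (H9.lt_inf_normalizer hS (lt_of_le_of_ne h hne)).not_ge h1

/-- the set-up of the last section -/
structure Setup (S : Sylow 2 G) (M T : Subgroup G) : Prop where
  zn : ZN G
  hO : pCore 2 G = ⊥
  hMJ : normalizer (J (S : Subgroup G) : Set G) ≤ M
  hT : T ∈ maxStraddlingTwoSubgroups M

namespace Setup

variable {S : Sylow 2 G} {M T : Subgroup G} (h : Setup S M T)
include h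

theorem S_le : (S : Subgroup G) ≤ M := (H9.le_normalizer_J 2 _).trans h.hMJ

theorem pT : IsPGroup 2 T := h.hT.1.1
theorem T_ne : T ≠ ⊥ := h.hT.1.2.1
theorem T_le : T ≤ M := h.hT.1.2.2.1
theorem J_ne : J T ≠ ⊥ := H9.J_ne_bot h.pT h.T_ne
theorem pJ : IsPGroup 2 (J T) := H9.isPGroup_J h.pT

theorem smul {g : G} (hg : g ∈ M) : Setup (g • S) M T :=
  ⟨h.zn, h.hO, by
    rw [coe_sylow_smul, J, ← H9.cj_J, ← cj_normalizer]
    exact cj_le_of_le' hg h.hMJ, h.hT⟩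

theorem exists_le : ∃ S' : Sylow 2 G, Setup S' M T ∧ T ≤ (S' : Subgroup G) := by
  obtain ⟨g, hg, h1⟩ := (isSylowIn_of_sylow S h.S_le).exists_le_cj h.pT h.T_le
  exact ⟨g • S, h.smul hg, h1⟩

theorem normalizer_J_le : normalizer (J T : Set G) ≤ M := by
  obtain ⟨S', h', hTS⟩ := h.exists_le
  by_contra hc
  have h1 : T ≤ (S' : Subgroup G) ⊓ normalizer (J T : Set G) := le_inf hTS (H9.le_normalizer_J 2 T)
  have h2 : (S' : Subgroup G) ⊓ normalizer (J T : Set G) ∈ straddlingTwoSubgroups M :=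
    ⟨S'.isPGroup'.to_inf_left, ne_bot_of_le h1 h.T_ne, inf_le_left.trans h'.S_le, _,
      isTwoLocal_normalizer h.pJ h.J_ne, inf_le_right, hc⟩
  have h3 := eq_of_le_of_card_le h1 (maxStrad_J h.hT h2 ((H9.J_le 2 T).trans h1)).2
  have h4 := eq_of_normalizer_le S'.isPGroup' hTS
    ((inf_le_inf_left _ (H9.normalizer_le_normalizer_J 2 T)).trans h3.ge)
  exact hc (by rw [h4]; exact h'.hMJ)

theorem overgroup {L T₀ : Subgroup G} (hL : IsTwoLocal L) (hLM : ¬ L ≤ M)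
    (h0 : IsSylowIn 2 T₀ L) (hJ : J T ≤ T₀) :
    J T₀ = J T ∧ T₀ ∈ straddlingTwoSubgroups M ∧ L ∈ jOvergroups T₀ ∧
      Nat.card T₀ ≤ Nat.card T := by
  have hJ1 : J T ≤ T₀ ⊓ M := le_inf hJ ((H9.J_le 2 T).trans h.T_le)
  have h1 : T₀ ⊓ M ∈ straddlingTwoSubgroups M :=
    ⟨h0.isPGroup.to_inf_left, ne_bot_of_le hJ1 h.J_ne, inf_le_right, L, hL,
      inf_le_left.trans h0.le, hLM⟩
  obtain ⟨h2, h3⟩ := maxStrad_J h.hT h1 hJ1
  have h4 : T₀ ⊓ M = T₀ := eq_of_normalizer_le h0.isPGroup inf_le_left (inf_le_inf_left _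
    ((H9.normalizer_le_normalizer_J 2 _).trans (by
      have := h.normalizer_J_le
      rwa [← h2] at this)))
  rw [h4] at h1 h2 h3
  refine ⟨h2, h1, ⟨syl_iff.mpr h0, fun h5 => hLM ?_, h.zn.charP hL⟩, h3⟩
  have h6 := H9.J_eq_of_le h5 h0.pCoreOf_le
  refine ((le_normalizer_pCoreOf 2 L).trans (H9.normalizer_le_normalizer_J 2 _)).trans ?_
  rw [h6]
  have := h.normalizer_J_le
  rwa [← h2] at this

theorem overgroup' {L : Subgroup G} (hL : IsTwoLocal L) (hLM : ¬ L ≤ M) (hTL : T ≤ L) :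
    L ∈ jOvergroups T := by
  obtain ⟨T₀, h0, h1⟩ := exists_isSylowIn_ge h.pT hTL
  obtain ⟨-, -, h2, h3⟩ := h.overgroup hL hLM h0 ((H9.J_le 2 T).trans h1)
  rwa [eq_of_le_of_card_le h1 h3]

/-- a 2-local subgroup containing `J(T)`, not in `M` -/
theorem overgroup'' {L : Subgroup G} (hL : IsTwoLocal L) (hLM : ¬ L ≤ M) (hTL : J T ≤ L) :
    ∃ T₀, J T₀ = J T ∧ L ∈ jOvergroups T₀ := by
  obtain ⟨T₀, h0, h1⟩ := exists_isSylowIn_ge h.pJ hTL
  obtain ⟨h2, -, h3, -⟩ := h.overgroup hL hLM h0 h1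
  exact ⟨T₀, h2, h3⟩

theorem comp_zero {K : Subgroup G} (hK : IsJComponent T K) (hKM : ¬ K ≤ M) :
    K ∈ jComponentsZero T :=
  ⟨hK, fun _ h1 h2 => (h.overgroup (comp_W_local hK)
    (fun h3 => hKM ((le_normalizer_wOf K).trans h3)) (syl_iff.mp h2) h1).1⟩

end Setup

/-- The facts on `J(T)`-components in members of `ℒ(T)`. -/
structure JF (G : Type*) [Group G] : Prop where
  W : ∀ T L K : Subgroup G, L ∈ jOvergroups T → IsJComponent T K → K ≤ L →
    wOf K = ⁅Om (O2 L), K⁆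
  O2_le : ∀ T L K : Subgroup G, L ∈ jOvergroups T → IsJComponent T K → K ≤ L → O2 K ≤ O2 L
  norm : ∀ T L K K' : Subgroup G, L ∈ jOvergroups T → IsJComponent T K → K ≤ L →
    IsJComponent T K' → K' ≤ L → K' ≤ normalizer (K : Set G)
  cent : ∀ T L K K' : Subgroup G, L ∈ jOvergroups T → IsJComponent T K → K ≤ L →
    IsJComponent T K' → K' ≤ L → K ≠ K' → K' ≤ centralizer (wOf K : Set G)
  conj : ∀ T L K : Subgroup G, L ∈ jOvergroups T → IsJComponent T K → K ≤ L →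
    ∀ g ∈ L, IsJComponent T (cj g K)
  gen : ∀ T L : Subgroup G, L ∈ jOvergroups T →
    L ≤ sSup {K | IsJComponent T K ∧ K ≤ L} ⊔ normalizer (J T : Set G)
  V_le : ∀ T L : Subgroup G, L ∈ jOvergroups T → Om (O2 L) ≤ J T
  V_cent : ∀ T L : Subgroup G, L ∈ jOvergroups T → ∀ v ∈ Om (O2 L), ∃ g ∈ L,
    v ∈ centralizer (cj g (J T) : Set G)
  split : ∀ T K : Subgroup G, IsPGroup 2 T → T ≠ ⊥ → IsJComponent T K →
    Nat.card ↥(Om (J T) ⊓ wOf K) = 2 ∧
      (Om (J T) ⊓ ((K ⊔ J T) ⊓ centralizer ((K ⊔ J T : Subgroup G) : Set G))) ⊔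
        (Om (J T) ⊓ wOf K) = Om (J T)

theorem JF.exists_not_le (jf : JF G) {T L M : Subgroup G} (hL : L ∈ jOvergroups T)
    (hM : normalizer (J T : Set G) ≤ M) (hLM : ¬ L ≤ M) :
    ∃ K, IsJComponent T K ∧ K ≤ L ∧ ¬ K ≤ M := by
  by_contra hc
  push Not at hc
  exact hLM ((jf.gen T L hL).trans (sup_le (sSup_le fun K hK => hc K hK.1 hK.2) hM))

theorem O2_le_O2_sup {T L K : Subgroup G} (hT : IsSylowIn 2 T L) (hK : K ≤ L) :
    O2 L ≤ O2 (K ⊔ T) :=
  (le_inf le_rfl (hT.pCoreOf_le.trans le_sup_right)).trans (pCoreOf_inf_le (sup_le hK hT.le))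

theorem Setup.exists_outside (jf : JF G) {S : Sylow 2 G} {M T : Subgroup G} (h : Setup S M T) :
    (jComponentsOutside M T).Nonempty := by
  obtain ⟨L, hL, hTL, hLM⟩ := h.hT.1.2.2.2
  have h1 := h.overgroup' hL hLM hTL
  obtain ⟨K, hK, hKL, hKM⟩ := jf.exists_not_le h1 h.normalizer_J_le hLM
  exact ⟨K, h.comp_zero hK hKM, hKM,
    ne_bot_of_le (O2_le_O2_sup (syl_iff.mp h1.1) hKL) (IsTwoLocal.O2_ne_bot hL)⟩

/-- a maximal 2-local is the normalizer of the join of its components -/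
theorem JF.normalizer_sSup (jf : JF G) {T L K : Subgroup G} (hL : L ∈ jOvergroups T)
    (hm : IsMaximalTwoLocal L) (hK : IsJComponent T K) (hKL : K ≤ L) :
    normalizer ((sSup {K | IsJComponent T K ∧ K ≤ L} : Subgroup G) : Set G) ≤ L := by
  set E : Subgroup G := sSup {K | IsJComponent T K ∧ K ≤ L} with hE
  have hEL : E ≤ L := sSup_le fun _ h => h.2
  have h1 : L ≤ normalizer (E : Set G) := by
    rw [le_normalizer_iff_cj]
    intro g hg
    rw [cj_le_iff]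
    refine sSup_le fun K' hK' => cj_le_iff.mp (le_sSup ⟨jf.conj T L K' hL hK'.1 hK'.2 g hg, ?_⟩)
    exact cj_le_of_le' hg hK'.2
  have h2 : wOf K ≤ O2 E := by
    refine le_trans (le_inf ((wOf_le K).trans (jf.O2_le T L K hL hK hKL)) ?_) (pCoreOf_inf_le hEL)
    exact ((wOf_le K).trans (pCoreOf_le 2 K)).trans (le_sSup ⟨hK, hKL⟩)
  exact (normalizer_le_normalizer_pCoreOf 2 E).trans (IsMaximalTwoLocal.normalizer_eq hm
    (isPGroup_pCoreOf 2 E) (ne_bot_of_le h2 (comp_W_ne_bot hK))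
    (h1.trans (normalizer_le_normalizer_pCoreOf 2 E))).le

theorem Setup.unique (jf : JF G) {S : Sylow 2 G} {M T K L₁ L₂ : Subgroup G} (h : Setup S M T)
    (hK : IsJComponent T K) (hKM : ¬ K ≤ M) (m1 : IsMaximalTwoLocal L₁) (m2 : IsMaximalTwoLocal L₂)
    (k1 : K ≤ L₁) (j1 : J T ≤ L₁) (k2 : K ≤ L₂) (j2 : J T ≤ L₂) : L₁ = L₂ := by
  obtain ⟨L₃, m3, h3⟩ := exists_max (comp_W_local hK)
  have k3 := (le_normalizer_wOf K).trans h3
  have j3 := (comp_J_le_W hK).trans h3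
  obtain ⟨T₃, e3, o3⟩ := h.overgroup'' m3.1 (fun h' => hKM (k3.trans h')) j3
  have key : ∀ L, IsMaximalTwoLocal L → K ≤ L → J T ≤ L → L = L₃ := by
    intro L m k j
    obtain ⟨T₀, e0, o0⟩ := h.overgroup'' m.1 (fun h' => hKM (k.trans h')) j
    have hK0 := comp_congr e0.symm hK
    have a1 : ∀ K', IsJComponent T₀ K' → K' ≤ L → K' ≤ L₃ := fun K' c1 c2 =>
      (jf.norm T₀ L K K' o0 hK0 k c1 c2).trans ((normalizer_le_normalizer_wOf K).trans h3)
    have a2 : ∀ K', IsJComponent T₃ K' → K' ≤ L₃ → K' ≤ L := fun K' c1 c2 => by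
      refine le_trans ?_ (jf.normalizer_sSup o0 m hK0 k)
      rw [sSup_eq_iSup']
      exact le_normalizer_iSup fun K'' => jf.norm T₃ L₃ K'' K' o3
        (comp_congr (e0.trans e3.symm) K''.2.1) (a1 _ K''.2.1 K''.2.2) c1 c2
    have e : {K | IsJComponent T₃ K ∧ K ≤ L₃} = {K | IsJComponent T₀ K ∧ K ≤ L} := by
      ext K'
      exact ⟨fun c => ⟨comp_congr (e3.trans e0.symm) c.1, a2 _ c.1 c.2⟩,
        fun c => ⟨comp_congr (e0.trans e3.symm) c.1, a1 _ c.1 c.2⟩⟩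
    refine (m.2 L₃ m3.1 ?_).symm
    refine le_trans ?_ (jf.normalizer_sSup o3 m3 (comp_congr e3.symm hK) k3)
    rw [e, le_normalizer_iff_cj]
    intro g hg
    rw [cj_le_iff]
    refine sSup_le fun K' hK' => cj_le_iff.mp (le_sSup ⟨jf.conj T₀ L K' o0 hK'.1 hK'.2 g hg, ?_⟩)
    exact cj_le_of_le' hg hK'.2
  rw [key L₁ m1 k1 j1, key L₂ m2 k2 j2]

/-- a full configuration -/
structure Cfg (S : Sylow 2 G) (M T K L : Subgroup G) : Prop extends Setup S M T where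
  jf : JF G
  TS : T ≤ (S : Subgroup G)
  comp : IsJComponent T K
  KM : ¬ K ≤ M
  max : IsMaximalTwoLocal L
  KL : K ≤ L
  ov : L ∈ jOvergroups T

theorem Setup.exists_cfg (jf : JF G) {S : Sylow 2 G} {M T K : Subgroup G} (h : Setup S M T)
    (hTS : T ≤ (S : Subgroup G)) (hK : K ∈ jComponentsOutside M T) : ∃ L, Cfg S M T K L := by
  obtain ⟨L, m, hL⟩ := exists_max (isTwoLocal_normalizer (isPGroup_pCoreOf 2 (K ⊔ T)) hK.2.2)
  have h1 := (le_normalizer_pCoreOf 2 (K ⊔ T)).trans hL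
  exact ⟨L, h, jf, hTS, hK.1.1, hK.2.1, m, le_sup_left.trans h1,
    h.overgroup' m.1 (fun h' => hK.2.1 (le_sup_left.trans (h1.trans h'))) (le_sup_right.trans h1)⟩

end Cfsg.KS12
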