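import Cfsg.Agent.L0.KS12b

/-! The TI-lemma. -/

set_option autoImplicit false
set_option linter.unusedSectionVars false

namespace Cfsg.KS12

open Subgroup Cfsg.H7
open Cfsg.H9 (MaxEA Best)
open scoped commutatorElement

variable {G : Type*} [Group G] [Finite G]

theorem mem_centralizer_of_forall {U : Subgroup G} {b : G} (h : ∀ u ∈ U, b * u * b⁻¹ = u) :
    b ∈ centralizer (U : Set G) := fun u hu => by
  have := h u hu
  rw [mul_inv_eq_iff_eq_mul] at this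
  exact this.symm

theorem conj_eq_of_mem_centralizer {U : Subgroup G} {b u : G} (h : b ∈ centralizer (U : Set G))
    (hu : u ∈ U) : b * u * b⁻¹ = u := by
  rw [← h u hu, mul_inv_cancel_right]

theorem swap_aux {A U₁ U₂ W : Subgroup G} (hi : U₁ ⊓ U₂ = ⊥) (h1 : U₁ ≤ W) {a b : G} (ha : a ∈ A)
    (hs : cj a U₁ = U₂) (hb : b ∈ centralizer ((⁅W, A⁆ : Subgroup G) : Set G))
    (f1 : cj b U₁ = U₁) (f2 : cj b U₂ = U₂) : b ∈ centralizer (U₁ : Set G) := by
  refine mem_centralizer_of_forall fun u hu => ?_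
  have e := conj_eq_of_mem_centralizer hb (commutator_mem_commutator (h1 hu) ha)
  have hv : a * u⁻¹ * a⁻¹ ∈ U₂ := hs ▸ conj_mem_cj (inv_mem hu)
  have m1 : u⁻¹ * (b * u * b⁻¹) ∈ U₁ := mul_mem (inv_mem hu) (f1 ▸ conj_mem_cj hu)
  have m2 : u⁻¹ * (b * u * b⁻¹) ∈ U₂ := by
    have : u⁻¹ * (b * u * b⁻¹) = (a * u⁻¹ * a⁻¹) * (b * (a * u⁻¹ * a⁻¹) * b⁻¹)⁻¹ := by
      rw [commutatorElement_def] at e
      calc _ = u⁻¹ * (b * (u * a * u⁻¹ * a⁻¹) * b⁻¹) * (b * (a * u⁻¹ * a⁻¹) * b⁻¹)⁻¹ := by group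
        _ = _ := by rw [e]; group
    rw [this]
    exact mul_mem hv (inv_mem (f2 ▸ conj_mem_cj hv))
  have : u⁻¹ * (b * u * b⁻¹) ∈ (⊥ : Subgroup G) := hi ▸ ⟨m1, m2⟩
  rw [mem_bot, inv_mul_eq_one] at this
  exact this.symm

theorem swap_aux2 {A U₁ U₂ W : Subgroup G} (hi : U₁ ⊓ U₂ = ⊥) (h1 : U₁ ≤ W) {c b : G} (hc : c ∈ A)
    (hs : cj b U₁ = U₂) (hb : b ∈ centralizer ((⁅W, A⁆ : Subgroup G) : Set G))
    (f1 : cj c U₁ = U₁) : c ∈ centralizer (U₁ : Set G) := by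
  intro u hu
  have e := conj_eq_of_mem_centralizer hb (commutator_mem_commutator (h1 hu) hc)
  have m1 : ⁅u, c⁆ ∈ U₁ := by
    have : ⁅u, c⁆ = u * (c * u⁻¹ * c⁻¹) := by rw [commutatorElement_def]; group
    rw [this]
    exact mul_mem hu (f1 ▸ conj_mem_cj (inv_mem hu))
  have m2 : ⁅u, c⁆ ∈ U₂ := by rw [← e, ← hs]; exact conj_mem_cj m1
  have : ⁅u, c⁆ ∈ (⊥ : Subgroup G) := hi ▸ ⟨m1, m2⟩
  exact commutatorElement_eq_one_iff_mul_comm.mp (mem_bot.mp this)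

theorem swap_lemma {A U₁ U₂ : Subgroup G} (hA : IsElementaryAbelian 2 A)
    (hW : IsElementaryAbelian 2 (U₁ ⊔ U₂)) (hb : Best (U₁ ⊔ U₂) A) (hi : U₁ ⊓ U₂ = ⊥)
    (hs : ∀ a ∈ A, (cj a U₁ = U₁ ∧ cj a U₂ = U₂) ∨ (cj a U₁ = U₂ ∧ cj a U₂ = U₁))
    {a : G} (ha : a ∈ A) (ha1 : cj a U₁ = U₂) (ha2 : cj a U₂ = U₁) : Nat.card U₁ ≤ 2 := by
  by_cases h0 : U₁ = ⊥
  · rw [h0, card_bot]; omega
  have hne : U₁ ≠ U₂ := fun e => h0 (by rw [← hi, ← e, inf_idem])
  have hi' : U₂ ⊓ U₁ = ⊥ := by rw [inf_comm, hi]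
  have hAW : A ≤ normalizer ((U₁ ⊔ U₂ : Subgroup G) : Set G) := fun x hx => by
    rw [mem_normalizer_iff_cj, cj_sup]
    rcases hs x hx with ⟨e1, e2⟩ | ⟨e1, e2⟩
    · rw [e1, e2]
    · rw [e1, e2, sup_comm]
  have hnc : ∀ x, cj x U₁ = U₂ → x ∉ centralizer ((U₁ ⊔ U₂ : Subgroup G) : Set G) := fun x e hx =>
    hne (by rw [← e, cj_eq_of_mem_normalizer (centralizer_le_normalizer _
      (centralizer_anti le_sup_left hx))])
  have h1 := H9.timmesfeld_not_le (p := 2) (ea_le_centralizer hW) (ea_isPGroup hW) hAW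
    (commutator_le_of_le_centralizer (ea_le_centralizer hA))
    (by rw [pResidualOf_eq_bot_of_isPGroup (ea_isPGroup hA)]; exact bot_le) hb
    (fun h => hnc a ha1 (h ha))
  obtain ⟨b, hb1, hb2⟩ := not_forall₂.mp h1
  obtain ⟨e1, e2⟩ : cj b U₁ = U₂ ∧ cj b U₂ = U₁ := by
    refine (hs b hb1.1).resolve_left fun ⟨e1, e2⟩ => hb2 ?_
    rw [centralizer_sup]
    exact ⟨swap_aux hi le_sup_left ha ha1 hb1.2 e1 e2,
      swap_aux hi' le_sup_right ha ha2 hb1.2 e2 e1⟩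
  have hfix : ∀ c ∈ A, cj c U₁ = U₁ → cj c U₂ = U₂ →
      c ∈ centralizer ((U₁ ⊔ U₂ : Subgroup G) : Set G) := fun c hc f1 f2 => by
    rw [centralizer_sup]
    exact ⟨swap_aux2 hi le_sup_left hc e1 hb1.2 f1, swap_aux2 hi' le_sup_right hc e2 hb1.2 f2⟩
  set C := centralizer ((U₁ ⊔ U₂ : Subgroup G) : Set G) with hC
  have hidx : C.relIndex A ∣ 2 := H9.relIndex_dvd_two_of_forall fun x hx y hy hx' hy' => by
    obtain ⟨x1, x2⟩ := (hs x hx).resolve_left fun ⟨f1, f2⟩ => hx' (hfix x hx f1 f2)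
    obtain ⟨y1, y2⟩ := (hs y hy).resolve_left fun ⟨f1, f2⟩ => hy' (hfix y hy f1 f2)
    exact hfix _ (mul_mem hx hy) (by rw [cj_mul, y1, x2]) (by rw [cj_mul, y2, x1])
  have a1 := relIndex_mul_card_inf C A
  have a2 := hb (C ⊓ A) inf_le_right
  rw [inf_eq_left.mpr (le_centralizer_iff.mp inf_le_left)] at a2
  have a3 := card_sup_mul_card_inf (H := (U₁ ⊔ U₂) ⊓ centralizer (A : Set G)) (N := U₁)
    (le_normalizer_of_le_centralizer (inf_le_left.trans
      ((ea_le_centralizer hW).trans (centralizer_anti le_sup_left))))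
  have a4 : (U₁ ⊔ U₂) ⊓ centralizer (A : Set G) ⊓ U₁ = ⊥ := by
    rw [eq_bot_iff, ← hi]
    intro u hu
    refine ⟨hu.2, ?_⟩
    have : a * u * a⁻¹ = u := by rw [hu.1.2 a ha, mul_inv_cancel_right]
    rw [← this, ← ha1]
    exact conj_mem_cj hu.2
  rw [a4, card_bot, mul_one] at a3
  have a5 : Nat.card ↥(((U₁ ⊔ U₂) ⊓ centralizer (A : Set G)) ⊔ U₁) ≤ Nat.card ↥(U₁ ⊔ U₂) :=
    card_le_of_le (sup_le inf_le_left le_sup_left)
  have a6 := Nat.le_of_dvd two_pos hidx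
  have p1 : 0 < Nat.card ↥(C ⊓ A) := Nat.card_pos
  have p2 : 0 < Nat.card ↥((U₁ ⊔ U₂) ⊓ centralizer (A : Set G)) := Nat.card_pos
  rw [a3] at a5
  rw [← a1] at a2
  generalize Nat.card ↥(C ⊓ A) = x at *
  generalize Nat.card ↥((U₁ ⊔ U₂) ⊓ centralizer (A : Set G)) = y at *
  generalize Nat.card ↥(U₁ ⊔ U₂) = w at *
  generalize Nat.card U₁ = u at *
  generalize C.relIndex A = r at *
  have : x * y * u ≤ x * y * 2 := by
    calc x * y * u = x * (y * u) := by ring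
      _ ≤ x * w := by gcongr
      _ ≤ r * x * y := a2
      _ ≤ 2 * x * y := by gcongr
      _ = _ := by ring
  exact Nat.le_of_mul_le_mul_left this (Nat.mul_pos p1 p2)

theorem card_le_sq {Y : Subgroup G} (hY : Y ≤ centralizer (Y : Set G)) {w : G} (hw : w * w = 1)
    (he : ∀ y ∈ Y, y ^ 2 = 1) (hn : w ∈ normalizer (Y : Set G)) :
    Nat.card Y ≤ Nat.card ↥(centralizer {w} ⊓ Y) ^ 2 := by
  have hwi : w⁻¹ = w := inv_eq_of_mul_eq_one_right hw
  have hc : ∀ a ∈ Y, ∀ b ∈ Y, a * b = b * a := fun a ha b hb => hY hb a ha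
  have hm : ∀ a ∈ Y, w * a * w⁻¹ ∈ Y := fun a ha => (mem_normalizer_iff.mp hn a).mp ha
  have h := H9.relIndex_le_of_map (A := Y) (B := centralizer {w}) (Y := ⊥)
    (Z := centralizer {w} ⊓ Y) (fun a => a * (w * a * w⁻¹)) (fun a ha => ⟨mem_centralizer_singleton_iff.mpr (by
      have := hc _ ha _ (hm a ha)
      rw [hwi] at this
      calc a * (w * a * w⁻¹) * w = w * (w * a * w * a) := by
            rw [← mul_assoc, ← mul_assoc, ← mul_assoc, ← mul_assoc, ← mul_assoc, hw]; group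
        _ = _ := by rw [← this, hwi]), mul_mem ha (hm a ha)⟩) (by
      intro a ha b hb h
      rw [mem_bot, inv_mul_eq_one] at h
      have hab : a⁻¹ * b ∈ Y := mul_mem (inv_mem ha) hb
      have h2 : ∀ y ∈ Y, y⁻¹ = y := fun y hy => inv_eq_of_mul_eq_one_right (by rw [← sq, he y hy])
      rw [mem_centralizer_singleton_iff, ← mul_inv_eq_iff_eq_mul]
      have e : w * (a⁻¹ * b) * w⁻¹ = a⁻¹ * b := by
        calc _ = (w * a * w⁻¹)⁻¹ * (w * b * w⁻¹) := by group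
          _ = (w * a * w⁻¹)⁻¹ * b⁻¹ * (b * (w * b * w⁻¹)) := by group
          _ = (w * a * w⁻¹)⁻¹ * (b⁻¹ * a * (w * a * w⁻¹)) := by rw [← h]; group
          _ = (w * a * w⁻¹)⁻¹ * ((w * a * w⁻¹) * (b⁻¹ * a)) := by
            rw [hc _ (mul_mem (inv_mem hb) ha) _ (hm a ha)]
          _ = (a⁻¹ * b)⁻¹ := by group
          _ = _ := h2 _ hab
      calc a⁻¹ * b * w * (a⁻¹ * b)⁻¹ = (w * (a⁻¹ * b) * w⁻¹) * w * (a⁻¹ * b)⁻¹ := by rw [e]
        _ = w := by group)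
  rw [relIndex_bot_left] at h
  rw [← relIndex_mul_card_inf (centralizer {w}) Y, sq]
  exact Nat.mul_le_mul_right _ h

theorem Om_S_ne_bot {S : Sylow 2 G} {T : Subgroup G} (h : T ≤ (S : Subgroup G)) (h1 : T ≠ ⊥) :
    Om (S : Subgroup G) ≠ ⊥ := omegaOneCenter_ne_bot S.isPGroup' (ne_bot_of_le h h1)

namespace Cfg

variable {S : Sylow 2 G} {M T K L : Subgroup G} (h : Cfg S M T K L)
include h

theorem syl : IsSylowIn 2 T L := syl_iff.mp h.ov.1
theorem TL : T ≤ L := h.syl.le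
theorem JL : J T ≤ L := (H9.J_le 2 T).trans h.TL
theorem Q_le : O2 L ≤ T := h.syl.pCoreOf_le
theorem cent_Q : centralizer (O2 L : Set G) ≤ O2 L := h.ov.2.2
theorem S_inf : (S : Subgroup G) ⊓ L = T := h.syl.inf_eq S.isPGroup' h.TS
theorem OK_le : O2 K ≤ O2 L := h.jf.O2_le T L K h.ov h.comp h.KL
theorem L_le_V : L ≤ normalizer (Om (O2 L) : Set G) :=
  (le_normalizer_pCoreOf 2 L).trans (normalizer_le_normalizer_omegaOneCenter 2 _)
theorem W_le_V' {K' : Subgroup G} (c : IsJComponent T K') (hl : K' ≤ L) : wOf K' ≤ Om (O2 L) := by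
  rw [h.jf.W T L K' h.ov c hl]
  exact commutator_le_left_of_le_normalizer (hl.trans h.L_le_V)
theorem W_le_V : wOf K ≤ Om (O2 L) := h.W_le_V' h.comp h.KL
theorem V_le_T : Om (O2 L) ≤ T := (omegaOneCenter_le 2 _).trans h.Q_le

theorem uniq {N : Subgroup G} (hN : IsTwoLocal N) (h1 : K ≤ N) (h2 : J T ≤ N) : N ≤ L := by
  obtain ⟨L', m, hL⟩ := exists_max hN
  rwa [h.toSetup.unique h.jf h.comp h.KM h.max m h.KL h.JL (h1.trans hL) (h2.trans hL)]

theorem normalizer_W_le : normalizer (wOf K : Set G) ≤ L :=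
  h.uniq (comp_W_local h.comp) (le_normalizer_wOf K) (comp_J_le_W h.comp)

theorem normalizer_V : normalizer (Om (O2 L) : Set G) = L :=
  IsMaximalTwoLocal.normalizer_eq h.max (ea_isPGroup (ea_omegaOneCenter 2 _))
    (ne_bot_of_le h.W_le_V (comp_W_ne_bot h.comp)) h.L_le_V

theorem Z_le_V : Om (S : Subgroup G) ≤ Om (O2 L) := by
  have := (omegaOneCenter_le_centralizer 2 (S : Subgroup G)).trans
    (centralizer_anti (h.Q_le.trans h.TS))
  exact le_omegaOneCenter (this.trans h.cent_Q) this (ea_omegaOneCenter 2 _).2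

theorem Z_le_OmT : Om (S : Subgroup G) ≤ Om T :=
  le_omegaOneCenter (h.Z_le_V.trans h.V_le_T) ((omegaOneCenter_le_centralizer 2 _).trans
    (centralizer_anti h.TS)) (ea_omegaOneCenter 2 _).2

theorem OmT_le : Om T ≤ Om (J T) := H9.omegaOneCenter_le_omegaOneCenter_J (H9.J_le 2 T) le_rfl

theorem Z_ne : Om (S : Subgroup G) ≠ ⊥ := Om_S_ne_bot h.TS h.T_ne

theorem T_inf_cent : T ⊓ centralizer (Om (O2 L) : Set G) ≤ O2 L := by
  have h1 : L ⊓ centralizer (Om (O2 L) : Set G) ≤ normalizer (T : Set G) := by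
    rw [← h.S_inf]
    exact le_normalizer_inf (inf_le_right.trans ((centralizer_anti h.Z_le_V).trans (h.zn.hZ S)))
      (le_normalizer_of_le inf_le_left)
  refine le_trans (le_pCoreOf (H := L ⊓ centralizer (Om (O2 L) : Set G)) h.pT.to_inf_left
    (inf_le_inf_right _ h.TL) (le_normalizer_inf h1 (le_normalizer_of_le inf_le_right))) ?_
  exact pCoreOf_le_of_normal inf_le_left
    (le_normalizer_inf le_normalizer (le_normalizer_centralizer h.L_le_V))

theorem W_inf {K' : Subgroup G} (c : IsJComponent T K') (hl : K' ≤ L) (hne : K ≠ K') :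
    wOf K ⊓ wOf K' = ⊥ := by
  rw [eq_bot_iff, ← comp_W_inf c]
  exact le_inf inf_le_right (inf_le_left.trans
    (le_centralizer_iff.mp (h.jf.cent T L K K' h.ov h.comp h.KL c hl hne)))

theorem conj {g : G} (hg : g ∈ normalizer (T : Set G)) : Cfg S M T (cj g K) (cj g L) := by
  have e := cj_eq_of_mem_normalizer hg
  have hM : g ∈ M := h.normalizer_J_le (H9.normalizer_le_normalizer_J 2 T hg)
  have hKM : ¬ cj g K ≤ M := fun h' => h.KM (by rwa [cj_le_iff, cj_eq_of_mem (inv_mem hM)] at h')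
  have m := IsMaximalTwoLocal.cj' h.max g
  exact ⟨h.toSetup, h.jf, h.TS, e ▸ comp_cj h.comp g, hKM, m, cj_mono h.KL,
    h.overgroup' m.1 (fun h' => hKM ((cj_mono h.KL).trans h')) (e ▸ cj_mono h.TL)⟩

/-- an element of `L` centralizing a nontrivial element of `W_K` normalizes `K` -/
theorem mem_normalizer {x w : G} (hx : x ∈ L) (hw : w ∈ wOf K) (h1 : w ≠ 1)
    (hc : x * w * x⁻¹ = w) : x ∈ normalizer (K : Set G) := by
  rw [mem_normalizer_iff_cj]
  by_contra hne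
  have := h.W_inf (h.jf.conj T L K h.ov h.comp h.KL x hx) (cj_le_of_le' hx h.KL) (Ne.symm hne)
  refine h1 (mem_bot.mp (this ▸ ⟨hw, ?_⟩))
  rw [← cj_wOf, ← hc]
  exact conj_mem_cj hw

section TI

variable {Y : Subgroup G} (hY : IsElementaryAbelian 2 Y) (hYS : Y ≤ (S : Subgroup G))
  (hSY : (S : Subgroup G) ≤ normalizer (Y : Set G)) (hZY : Om (S : Subgroup G) ≤ Y)
  (hTI : ∀ g, Y ⊓ cj g Y ≠ ⊥ → g ∈ M)
include hY hYS hSY hZY hTI

theorem ti_card : Nat.card ↥(Y ⊓ O2 L) ≤ 2 := by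
  obtain ⟨y, hy, h3, hy', e⟩ := comp_exists_y h.comp
  have hyM : y ∉ M := fun hm => h.KM (by
    rw [← e]; exact sup_le (h.OK_le.trans (h.Q_le.trans h.T_le)) (zpowers_le.mpr hm))
  have hyy : y * y = y⁻¹ := by rw [eq_inv_iff_mul_eq_one, ← h3]; simp [pow_succ]
  set U := Y ⊓ O2 L with hU
  have hTU : ∀ t ∈ T, cj t U = U := fun t ht => cj_eq_of_mem_normalizer
    (le_normalizer_inf (h.TS.trans hSY) (h.TL.trans (le_normalizer_pCoreOf 2 L)) ht)
  have hQ : ∀ g ∈ L, cj g U ≤ O2 L := fun g hg =>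
    cj_le_of_le (le_normalizer_pCoreOf 2 L hg) inf_le_right
  have hQn : ∀ g ∈ L, O2 L ≤ normalizer (cj g U : Set G) := fun g hg => by
    rw [← cj_normalizer]
    exact (cj_eq_of_mem_normalizer (le_normalizer_pCoreOf 2 L hg)).ge.trans
      (cj_mono fun q hq => mem_normalizer_iff_cj.mpr (hTU q (h.Q_le hq)))
  have hyL := h.KL hy
  have hi : cj y U ⊓ cj y⁻¹ U = ⊥ := by
    by_contra hne
    refine hyM (hTI y fun e0 => hne ?_)
    have : cj y U ⊓ cj y⁻¹ U ≤ cj y (Y ⊓ cj y Y) := by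
      rw [cj_inf y Y (cj y Y), ← cj_mul, hyy]; exact inf_le_inf (cj_mono inf_le_left) (cj_mono inf_le_left)
    rw [e0, cj_bot] at this
    exact le_bot_iff.mp this
  have hea : ∀ g, IsElementaryAbelian 2 (cj g U) := fun g => ea_map (ea_mono hY inf_le_left) _
  have hW : IsElementaryAbelian 2 (cj y U ⊔ cj y⁻¹ U) := H9.ea_sup' (hea _) (hea _)
    (commutator_eq_bot_iff_le_centralizer.mp (eq_bot_iff.mpr (hi ▸ commutator_le_inf'
      ((hQ _ (inv_mem hyL)).trans (hQn _ hyL)) ((hQ _ hyL).trans (hQn _ (inv_mem hyL))))))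
  obtain ⟨A, hA, a, ha, q, hq, ea⟩ := comp_exists_inv h.comp hy hy' e
  have hOT : O2 K ≤ T := h.OK_le.trans h.Q_le
  have key : ∀ x ∈ T, ∀ u v : G, ∀ q ∈ O2 K, v ∈ K → x * u * x⁻¹ = v * q →
      cj x (cj u U) = cj v U ∧ cj x (cj u⁻¹ U) = cj v⁻¹ U := by
    intro x hx u v q hq hv e1
    constructor
    · rw [← cj_mul, show x * u = v * (q * x) by rw [← mul_assoc, ← e1]; group, cj_mul,
        hTU _ (mul_mem (hOT hq) hx)]
    · have hq' : v * q⁻¹ * v⁻¹ ∈ O2 K :=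
        (mem_normalizer_iff.mp (le_normalizer_pCoreOf 2 K hv) _).mp (inv_mem hq)
      rw [← cj_mul, show x * u⁻¹ = v⁻¹ * (v * q⁻¹ * v⁻¹ * x) by
        calc x * u⁻¹ = (x * u * x⁻¹)⁻¹ * x := by group
          _ = _ := by rw [e1]; group, cj_mul, hTU _ (mul_mem (hOT hq') hx)]
  have hs := key a (hA.le ha) y y⁻¹ q hq (inv_mem hy) ea
  rw [inv_inv] at hs
  have := swap_lemma hA.ea hW (hA.best (sup_le ((hQ _ hyL).trans h.Q_le)
    ((hQ _ (inv_mem hyL)).trans h.Q_le)) hW) hi (fun x hx => by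
      rcases comp_conj_y h.comp hy hy' (comp_J_le h.comp (hA.le_J hx)) with ⟨q, hq, e1⟩ | ⟨q, hq, e1⟩
      · exact Or.inl (key x (hA.le hx) y y q hq hy e1)
      · have := key x (hA.le hx) y y⁻¹ q hq (inv_mem hy) e1
        rw [inv_inv] at this
        exact Or.inr this) ha hs.1 hs.2
  rwa [card_cj] at this

theorem ti_eq : Y ⊓ O2 L = Om (S : Subgroup G) ∧ Nat.card (Om (S : Subgroup G)) = 2 := by
  have h1 := h.ti_card hY hYS hSY hZY hTI
  have h2 : Om (S : Subgroup G) ≤ Y ⊓ O2 L :=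
    le_inf hZY (h.Z_le_V.trans (omegaOneCenter_le 2 _))
  have h3 := (one_lt_card_iff_ne_bot _).mpr h.Z_ne
  have h4 := card_le_of_le h2
  exact ⟨(eq_of_le_of_card_le h2 (by omega)).symm, by omega⟩

theorem ti_not_le (h4 : 4 ≤ Nat.card Y) : ¬ Y ⊓ T ≤ O2 L := by
  intro hle
  obtain ⟨e1, e2⟩ := h.ti_eq hY hYS hSY hZY hTI
  have hX : Y ⊓ T ≤ Om (O2 L) := (le_inf inf_le_left hle).trans (e1.le.trans h.Z_le_V)
  have hTY : T ≤ normalizer (Y : Set G) := h.TS.trans hSY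
  have h1 : T = T ⊔ Y := by
    refine eq_of_normalizer_le (S.isPGroup'.to_le (sup_le h.TS hYS)) le_sup_left ?_
    rw [dedekind_left le_normalizer hTY]
    refine sup_le le_rfl ?_
    refine le_trans (le_inf (inf_le_left.trans hYS) (le_trans
      (le_normalizer_of_commutator_le h.V_le_T (le_trans ?_ hX)) h.normalizer_V.le)) h.S_inf.le
    exact le_inf ((commutator_mono le_rfl inf_le_left).trans
      (commutator_le_right_of_le_normalizer hTY)) (commutator_le_left_of_le_normalizer inf_le_right)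
  have h2 : Y ≤ Y ⊓ O2 L := le_inf le_rfl ((le_inf le_rfl (le_sup_right.trans h1.ge)).trans hle)
  have := card_le_of_le h2
  rw [e1] at this
  omega

theorem ti_x {x : G} (hxY : x ∈ Y) (hxT : x ∈ T) (hxQ : x ∉ O2 L) :
    x ∉ centralizer (wOf K : Set G) ∧ Om (S : Subgroup G) ≤ wOf K := by
  obtain ⟨e1, e2⟩ := h.ti_eq hY hYS hSY hZY hTI
  have hcomm : ∀ v ∈ O2 L, ⁅v, x⁆ ∈ Om (S : Subgroup G) := fun v hv => by
    rw [← e1]
    exact commutator_le_inf' (A := Y ⊓ T) (K := O2 L)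
      (inf_le_right.trans (h.TL.trans (le_normalizer_pCoreOf 2 L)))
      (le_normalizer_inf (h.Q_le.trans (h.TS.trans hSY)) (le_normalizer_of_le h.Q_le))
      (commutator_mem_commutator hv ⟨hxY, hxT⟩) |> fun h' => ⟨h'.2.1, h'.1⟩
  have hWQ : wOf K ≤ O2 L := h.W_le_V.trans (omegaOneCenter_le 2 _)
  -- `x` normalizes `K`
  have hxK : x ∈ normalizer (K : Set G) := by
    have h1 := H9.relIndex_le_of_map (A := wOf K) (B := centralizer {x}) (Y := ⊥)
      (Z := Om (S : Subgroup G)) (fun w => ⁅w⁻¹, x⁆) (fun w hw => hcomm _ (hWQ (inv_mem hw))) (by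
        intro a ha b hb e
        rw [mem_bot, inv_mul_eq_one] at e
        simp only [commutatorElement_def, inv_inv] at e
        have hc : b * a⁻¹ = a⁻¹ * b := ea_le_centralizer (ea_wOf K) (inv_mem ha) b hb
        rw [mem_centralizer_singleton_iff, ← hc]
        calc b * a⁻¹ * x = b * (a⁻¹ * x * a * x⁻¹) * x * a⁻¹ := by group
          _ = _ := by rw [e]; group)
    rw [relIndex_bot_left, e2] at h1
    have h2 := relIndex_mul_card_inf (centralizer {x}) (wOf K)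
    rw [comp_card h.comp] at h2
    obtain ⟨w, hw, hw1⟩ := exists_ne_one_of_ne_bot (X := centralizer {x} ⊓ wOf K) (fun e => by
      rw [e, card_bot] at h2; omega)
    refine h.mem_normalizer (h.TL hxT) hw.2 hw1 ?_
    rw [← mem_centralizer_singleton_iff.mp hw.1, mul_inv_cancel_right]
  obtain ⟨y, hy, h3, hy', e⟩ := comp_exists_y h.comp
  have hyM : y ∉ M := fun hm => h.KM (by
    rw [← e]; exact sup_le (h.OK_le.trans (h.Q_le.trans h.T_le)) (zpowers_le.mpr hm))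
  obtain ⟨q, hq, eq⟩ : ∃ q ∈ O2 K, x * y * x⁻¹ = y⁻¹ * q := by
    refine (comp_conj_y h.comp hy hy' hxK).resolve_left fun ⟨q, hq, eq⟩ => hxQ ?_
    refine h.T_inf_cent ⟨hxT, fun v hv => ?_⟩
    have hv' : y⁻¹ * v * y ∈ Om (O2 L) := (mem_normalizer_iff''.mp (h.L_le_V (h.KL hy)) v).mp hv
    have hqc : q ∈ centralizer (Om (O2 L) : Set G) :=
      le_centralizer_omegaOneCenter 2 _ (h.OK_le hq)
    have a1 := hcomm v (omegaOneCenter_le 2 _ hv)
    have a2 := hcomm _ (omegaOneCenter_le 2 _ hv')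
    have a3 : ⁅v, x⁆ = y * ⁅y⁻¹ * v * y, x⁆ * y⁻¹ := by
      have c := conj_eq_of_mem_centralizer hqc
        ((mem_normalizer_iff.mp (h.L_le_V (h.TL hxT)) _).mp (inv_mem hv'))
      have c' : x * y = y * q * x := by rw [← eq]; group
      simp only [commutatorElement_def]
      calc v * x * v⁻¹ * x⁻¹ = v * (x * y) * (y⁻¹ * v * y)⁻¹ * (x * y)⁻¹ := by group
        _ = v * y * (q * (x * (y⁻¹ * v * y)⁻¹ * x⁻¹) * q⁻¹) * y⁻¹ := by rw [c']; group
        _ = _ := by rw [c]; group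
    have a4 : ⁅v, x⁆ ∈ Y ⊓ cj y Y := ⟨hZY a1, a3 ▸ conj_mem_cj (hZY a2)⟩
    by_contra hne
    exact hyM (hTI y (ne_bot_of_mem a4 fun e0 => hne
      (commutatorElement_eq_one_iff_mul_comm.mp e0)))
  have hxc : x ∉ centralizer (wOf K : Set G) := by
    intro hc
    refine comp_not_le_centralizer h.comp ?_
    nth_rw 1 [← e]
    refine sup_le (O2_le_centralizer_wOf K) (zpowers_le.mpr ?_)
    have hyn := normalizer_le_normalizer_centralizer _ (le_normalizer_wOf K hy)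
    have a1 : y * x⁻¹ * y⁻¹ ∈ centralizer (wOf K : Set G) :=
      (mem_normalizer_iff.mp hyn _).mp (inv_mem hc)
    have a2 : y⁻¹ * q * y ∈ centralizer (wOf K : Set G) :=
      (mem_normalizer_iff''.mp hyn _).mp (O2_le_centralizer_wOf K hq)
    have a3 : y = (y⁻¹ * q * y)⁻¹ * (x * (y * x⁻¹ * y⁻¹)) * y ^ 3 := by
      calc y = (y⁻¹ * q * y)⁻¹ * (y⁻¹ * q * y⁻¹) * y ^ 3 := by group
        _ = (y⁻¹ * q * y)⁻¹ * (x * y * x⁻¹ * y⁻¹) * y ^ 3 := by rw [eq]
        _ = _ := by group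
    rw [a3, h3, mul_one]
    exact mul_mem (inv_mem a2) (mul_mem hc a1)
  refine ⟨hxc, ?_⟩
  obtain ⟨w, hw, hne⟩ := not_forall₂.mp hxc
  have a1 : ⁅w, x⁆ ∈ wOf K := commutator_le_left_of_le_normalizer
    (zpowers_le.mpr (normalizer_le_normalizer_wOf K hxK))
    (commutator_mem_commutator hw (mem_zpowers x))
  rw [H9.eq_zpowers_of_card_prime (by rw [e2]; exact Nat.prime_two) (hcomm w (hWQ hw))
    (fun e0 => hne (commutatorElement_eq_one_iff_mul_comm.mp e0))]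
  exact zpowers_le.mpr a1

theorem ti_lt : Nat.card Y < 8 := by
  by_contra h8
  push Not at h8
  obtain ⟨e1, e2⟩ := h.ti_eq hY hYS hSY hZY hTI
  obtain ⟨x, hx, hxQ⟩ := not_forall₂.mp (h.ti_not_le hY hYS hSY hZY hTI (by omega))
  have hZW := (h.ti_x hY hYS hSY hZY hTI hx.1 hx.2 hxQ).2
  obtain ⟨w, hw, hwZ⟩ := not_forall₂.mp (show ¬ wOf K ≤ Om (S : Subgroup G) from fun h' => by
    have := card_le_of_le h'
    rw [comp_card h.comp] at this; omega)
  have e3 := H9.sup_zpowers_eq_of_relIndex_prime (X := Om (S : Subgroup G)) (Y := wOf K) (by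
    have := relIndex_mul_card_of_le hZW
    rw [comp_card h.comp, e2] at this
    rw [show (Om (S : Subgroup G)).relIndex (wOf K) = 2 by omega]; exact Nat.prime_two) hw hwZ
  have a1 := card_le_sq (ea_le_centralizer hY) (h.comp.2.2.2.2.2 w hw) hY.2
    (hSY (h.TS (h.V_le_T (h.W_le_V hw))))
  have a2 : centralizer {w} ⊓ Y ≤ centralizer (wOf K : Set G) := by
    rw [← e3, centralizer_sup, H7.centralizer_zpowers]
    exact le_inf (inf_le_right.trans ((ea_le_centralizer hY).trans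
      (centralizer_anti (inf_le_left.trans hZY)))) inf_le_left
  have a3 : centralizer {w} ⊓ Y ≤ Y ⊓ O2 L := fun u hu => ⟨hu.2, by
    by_contra hn
    refine (h.ti_x hY hYS hSY hZY hTI hu.2 ?_ hn).1 (a2 hu)
    rw [← h.S_inf]
    exact ⟨hYS hu.2, h.normalizer_W_le (centralizer_le_normalizer _ (a2 hu))⟩⟩
  have a4 := card_le_of_le a3
  rw [e1, e2] at a4
  nlinarith

end TI

end Cfg

end Cfsg.KS12
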