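import Cfsg.Agent.L0.KS12c

/-! The centre of `J(T)`. -/

set_option autoImplicit false
set_option linter.unusedSectionVars false

namespace Cfsg.KS12

open Subgroup Cfsg.H7
open Cfsg.H9 (MaxEA Best)
open scoped commutatorElement

variable {G : Type*} [Group G] [Finite G]

/-- the hyperplane `C_{Z₀}(K)` -/
theorem JF.card_Z (jf : JF G) {T K : Subgroup G} (hT : IsPGroup 2 T) (h1 : T ≠ ⊥)
    (hK : IsJComponent T K) :
    Nat.card (Om (J T)) = Nat.card ↥(Om (J T) ⊓ centralizer (K : Set G)) * 2 := by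
  obtain ⟨a1, a2⟩ := jf.split T K hT h1 hK
  have e : (Om (J T) ⊓ centralizer (K : Set G)) ⊔ (Om (J T) ⊓ wOf K) = Om (J T) :=
    le_antisymm (sup_le inf_le_left inf_le_left) (a2.ge.trans (sup_le_sup_right
      (inf_le_inf_left _ (inf_le_right.trans (centralizer_anti le_sup_left))) _))
  have := card_sup_mul_card_inf (H := Om (J T) ⊓ centralizer (K : Set G)) (N := Om (J T) ⊓ wOf K)
    (le_normalizer_of_le_centralizer (inf_le_left.trans ((ea_le_centralizer
      (ea_omegaOneCenter 2 _)).trans (centralizer_anti inf_le_left))))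
  rw [e, a1, show Om (J T) ⊓ centralizer (K : Set G) ⊓ (Om (J T) ⊓ wOf K) = ⊥ from
    eq_bot_iff.mpr ((le_inf (inf_le_right.trans inf_le_right)
      (inf_le_left.trans inf_le_right)).trans (comp_W_inf hK).le), card_bot, mul_one] at this
  exact this

theorem hyperplanes {Z A B : Subgroup G} (hZ : Z ≤ centralizer (Z : Set G)) (hA : A ≤ Z)
    (hB : B ≤ Z) (a : Nat.card Z = Nat.card A * 2) (b : Nat.card Z = Nat.card B * 2)
    (h8 : 8 ≤ Nat.card Z) : A ⊓ B ≠ ⊥ := by
  intro e
  have := card_sup_mul_card_inf (H := A) (N := B)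
    (le_normalizer_of_le_centralizer (hA.trans (hZ.trans (centralizer_anti hB))))
  rw [e, card_bot, mul_one] at this
  have h := card_le_of_le (sup_le hA hB)
  nlinarith

theorem card_sup_of_inf_bot {V A B : Subgroup G} (hV : V ≤ centralizer (V : Set G)) (hA : A ≤ V)
    (hB : B ≤ V) (e : A ⊓ B = ⊥) : Nat.card A * Nat.card B ≤ Nat.card V := by
  have := card_sup_mul_card_inf (H := A) (N := B)
    (le_normalizer_of_le_centralizer (hA.trans (hV.trans (centralizer_anti hB))))
  rw [e, card_bot, mul_one] at this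
  exact this ▸ card_le_of_le (sup_le hA hB)

theorem mem_of_card_four {Z : Subgroup G} (h4 : Nat.card Z = 4) {a b u : G} (ha : a ∈ Z)
    (hb : b ∈ Z) (ha1 : a ≠ 1) (hb1 : b ≠ 1) (hab : a ≠ b) (ha2 : a * a = 1) (hu : u ∈ Z) :
    u = 1 ∨ u = a ∨ u = b ∨ u = a * b := by
  classical
  have h1 : a * b ≠ 1 := fun e => hab (by
    rw [← mul_left_cancel_iff (a := a), ha2, e])
  have h2 : a * b ≠ a := fun e => hb1 (by simpa using e)
  have h3 : a * b ≠ b := fun e => ha1 (by simpa using e)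
  have hs : (({1, a, b, a * b} : Finset G) : Set G) = (Z : Set G) := by
    refine Set.eq_of_subset_of_ncard_le ?_ ?_ (Set.toFinite _)
    · intro x hx
      simp only [Finset.coe_insert, Finset.coe_singleton, Set.mem_insert_iff,
        Set.mem_singleton_iff] at hx
      rcases hx with rfl | rfl | rfl | rfl
      exacts [one_mem _, ha, hb, mul_mem ha hb]
    · rw [Set.ncard_coe_finset, Finset.card_insert_of_notMem (by simp [ha1.symm, hb1.symm, h1.symm]),
        Finset.card_insert_of_notMem (by simp [hab, h2.symm]),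
        Finset.card_pair h3.symm, ← Nat.card_coe_set_eq]
      exact h4.le
  have : u ∈ (({1, a, b, a * b} : Finset G) : Set G) := hs ▸ hu
  simpa using this

namespace Cfg

variable {S : Sylow 2 G} {M T K L : Subgroup G} (h : Cfg S M T K L)
include h

theorem card_Z : Nat.card (Om (J T)) = Nat.card ↥(Om (J T) ⊓ centralizer (K : Set G)) * 2 :=
  h.jf.card_Z h.pT h.T_ne h.comp

theorem cent_le {z : G} (hz : z ∈ Om (J T)) (hK : z ∈ centralizer (K : Set G)) (h1 : z ≠ 1) :
    centralizer {z} ≤ L := by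
  obtain ⟨a1, a2⟩ := centralizer_le_of_local h1 ((ea_omegaOneCenter 2 _).2 z hz)
  exact a2.trans (h.uniq a1 ((le_centralizer_singleton_iff.mpr hK).trans a2)
    ((le_centralizer_singleton_iff.mpr (omegaOneCenter_le_centralizer 2 _ hz)).trans a2))

theorem not_spe : ¬ H9.SPE 2 L ⊤ := by
  intro hs
  obtain ⟨v, hv, hv1⟩ := exists_ne_one_of_ne_bot (ne_bot_of_le h.W_le_V (comp_W_ne_bot h.comp))
  refine h.ov.2.1 (H9.J_le_iff.mpr fun A hA a ha => ?_)
  by_cases ha1 : a = 1
  · rw [ha1]; exact one_mem _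
  obtain ⟨g, hg, rfl⟩ := spe_conj hs (h.TL (h.V_le_T hv)) (h.TL (hA.le ha)) hv1 ha1
    (by rw [← sq]; exact (ea_omegaOneCenter 2 _).2 v hv) (by rw [← sq]; exact hA.ea.2 a ha)
  exact (mem_normalizer_iff.mp (le_normalizer_pCoreOf 2 L hg) v).mp (omegaOneCenter_le 2 _ hv)

theorem second (hN : normalizer (J (S : Subgroup G) : Set G) ≤ L) :
    ∃ T' K' L', Cfg S L T' K' L' := by
  have h1 : (straddlingTwoSubgroups L).Nonempty := Set.nonempty_iff_ne_empty.mpr fun e =>
    h.not_spe ((spe_iff_strad h.hO h.max.1).mpr e)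
  obtain ⟨T₀, h0⟩ := exists_maxStrad h1
  obtain ⟨g, hg, h2⟩ := (isSylowIn_of_sylow S ((H9.le_normalizer_J 2 _).trans hN)).exists_cj_le
    h0.1.1 h0.1.2.2.1
  have s : Setup S L (cj g T₀) := ⟨h.zn, h.hO, hN, maxStrad_cj h0 hg⟩
  obtain ⟨K', hK'⟩ := s.exists_outside h.jf
  obtain ⟨L', hL'⟩ := s.exists_cfg h.jf h2 hK'
  exact ⟨_, K', L', hL'⟩

theorem local_le (hne : J T ≠ J (S : Subgroup G)) {N : Subgroup G} (hN : IsTwoLocal N)
    (hle : J (S : Subgroup G) ≤ N) : N ≤ M := by
  by_contra hc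
  exact hne (maxStrad_J_eq h.hT ⟨H9.isPGroup_J S.isPGroup',
    H9.J_ne_bot S.isPGroup' (ne_bot_of_le h.TS h.T_ne), le_normalizer.trans h.hMJ, N, hN, hle, hc⟩
    h.TS)

theorem ti_of (hM : IsMaximalTwoLocal M) (hne : J T ≠ J (S : Subgroup G)) {Y : Subgroup G}
    (hY : IsElementaryAbelian 2 Y)
    (hc : ∀ v ∈ Y, ∃ l ∈ M, v ∈ centralizer (cj l (J (S : Subgroup G)) : Set G)) :
    ∀ g, Y ⊓ cj g Y ≠ ⊥ → g ∈ M := by
  intro g hg
  obtain ⟨u, hu, hu1⟩ := exists_ne_one_of_ne_bot hg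
  obtain ⟨l, hl, c1⟩ := hc u hu.1
  obtain ⟨l', hl', c2⟩ := hc _ (mem_cj.mp hu.2)
  obtain ⟨a1, a2⟩ := centralizer_le_of_local hu1 (hY.2 u hu.1)
  have b1 := h.local_le hne (IsTwoLocal.cj' a1 l⁻¹)
    (cj_le_iff.mp ((le_centralizer_singleton_iff.mpr c1).trans a2))
  rw [cj_le_iff, inv_inv, cj_eq_of_mem hl] at b1
  have b2 : cj (g * l') (J (S : Subgroup G)) ≤ M := by
    refine le_trans (le_centralizer_singleton_iff.mpr ?_) (a2.trans b1)
    rw [cj_mul, ← cj_centralizer, mem_cj]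
    exact c2
  have b3 := mem_of_cj_le hM (h.local_le hne (IsTwoLocal.cj' hM.1 _) (cj_le_iff.mp b2))
  simpa using mul_mem (inv_mem b3) (inv_mem hl')

theorem T_eq_of (hN : normalizer (T : Set G) ≤ L) : T = (S : Subgroup G) :=
  eq_of_normalizer_le S.isPGroup' h.TS ((inf_le_inf_left _ hN).trans h.S_inf.le)

theorem Z_card_lt : Nat.card (Om (J T)) < 8 := by
  by_contra h8
  push Not at h8
  have hZc := ea_le_centralizer (ea_omegaOneCenter 2 (J T))
  have h1 : normalizer (Om (J T) : Set G) ≤ L := fun g hg => by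
    have e := cj_eq_of_mem_normalizer hg
    obtain ⟨z, hz, hz1⟩ := exists_ne_one_of_ne_bot (hyperplanes hZc inf_le_left
      ((cj_mono inf_le_left).trans e.le) h.card_Z (by rw [card_cj]; exact h.card_Z) h8)
    have c := h.cent_le hz.1.1 hz.1.2 hz1
    have hz2 := hz.2
    rw [cj_inf, cj_centralizer] at hz2
    have k1 : cj g K ≤ L := (le_centralizer_singleton_iff.mpr hz2.2).trans c
    have k2 : cj g (J T) ≤ L := by
      refine (le_centralizer_singleton_iff.mpr ?_).trans c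
      rw [← cj_centralizer]
      exact cj_mono (omegaOneCenter_le_centralizer 2 _) hz2.1
    exact L.inv_mem_iff.mp (mem_of_cj_le h.max (h.uniq (IsTwoLocal.cj' h.max.1 _)
      (cj_le_iff.mp k1) (cj_le_iff.mp k2)))
  have h2 := (normalizer_le_normalizer_omegaOneCenter 2 (J T)).trans h1
  have h3 := h.T_eq_of ((H9.normalizer_le_normalizer_J 2 T).trans h2)
  subst h3
  obtain ⟨T', K', L', c⟩ := h.second h2
  by_cases e : J T' = J (S : Subgroup G)
  · have c1 := c.card_Z
    rw [e] at c1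
    obtain ⟨z, hz, hz1⟩ := exists_ne_one_of_ne_bot
      (hyperplanes hZc inf_le_left inf_le_left h.card_Z c1 h8)
    exact c.KM ((le_centralizer_singleton_iff.mpr hz.2.2).trans (h.cent_le hz.1.1 hz.1.2 hz1))
  · have := c.ti_lt (ea_omegaOneCenter 2 (J (S : Subgroup G)))
      ((omegaOneCenter_le 2 _).trans (H9.J_le 2 _))
      ((H9.le_normalizer_J 2 _).trans (normalizer_le_normalizer_omegaOneCenter 2 _)) h.OmT_le
      (c.ti_of h.max e (ea_omegaOneCenter 2 _) fun v hv => ⟨1, one_mem _, by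
        rw [cj_one]; exact omegaOneCenter_le_centralizer 2 _ hv⟩)
    exact absurd this (not_lt.mpr h8)

theorem conj_ne (h2 : Nat.card (Om (S : Subgroup G)) = 2) {z z₁ : G} (hz : z ∈ Om (S : Subgroup G))
    (hz1 : z ≠ 1) (h1 : z₁ ∈ Om (J T)) (h1' : z₁ ∈ centralizer (K : Set G)) (g : G) :
    g * z * g⁻¹ ≠ z₁ := by
  rintro rfl
  have e := H9.eq_zpowers_of_card_prime (by rw [h2]; exact Nat.prime_two) hz hz1
  have a : centralizer {g * z * g⁻¹} ≤ normalizer (cj g (S : Subgroup G) : Set G) := by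
    rw [← cj_centralizer_singleton, ← cj_normalizer, ← H7.centralizer_zpowers, ← e]
    exact cj_mono (h.zn.hZ S)
  refine comp_not_le_normalizer h.comp (isPGroup_cj S.isPGroup') ?_
    ((le_centralizer_singleton_iff.mpr h1').trans a)
  exact (isSylowIn_top (g • S)).le_of_le_normalizer h.pJ le_top
    ((le_centralizer_singleton_iff.mpr (omegaOneCenter_le_centralizer 2 _ h1)).trans a)

theorem four_case (h4 : Nat.card (Om (J T)) = 4) (h2 : Nat.card (Om (S : Subgroup G)) = 2)
    {z z₁ : G} (hz : z ∈ Om (S : Subgroup G)) (hz1 : z ≠ 1) (h1 : z₁ ∈ Om (J T))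
    (h1' : z₁ ∈ centralizer (K : Set G)) (h11 : z₁ ≠ 1) {s : G} (hs : s ∈ (S : Subgroup G))
    (hsn : s ∈ normalizer (Om (J T) : Set G)) (hsc : s * z₁ * s⁻¹ ≠ z₁) :
    (∀ u ∈ Om (J T), u = 1 ∨ u = z ∨ u = z₁ ∨ u = s * z₁ * s⁻¹) ∧
    ∀ g ∈ normalizer (Om (J T) : Set G), g ∈ centralizer (Om (J T) : Set G) ∨
      g * s ∈ centralizer (Om (J T) : Set G) := by
  have hzZ : z ∈ Om (J T) := h.OmT_le (h.Z_le_OmT hz)
  have hzz : z * z = 1 := by rw [← sq]; exact (ea_omegaOneCenter 2 _).2 z hz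
  have hne : z ≠ z₁ := by simpa using h.conj_ne h2 hz hz1 h1 h1' 1
  have hm := fun u hu => mem_of_card_four h4 (u := u) hzZ h1 hz1 h11 hne hzz hu
  have hsz : s * z * s⁻¹ = z := by
    rw [omegaOneCenter_le_centralizer 2 _ hz s hs, mul_inv_cancel_right]
  have cj1 : ∀ {g x : G}, x ≠ 1 → g * x * g⁻¹ ≠ 1 := fun hx e => hx (by
    rwa [mul_inv_eq_one, mul_eq_left] at e)
  have inj : ∀ {g x y : G}, g * x * g⁻¹ = g * y * g⁻¹ → x = y := fun e => by simpa using e
  have e1 : s * z₁ * s⁻¹ = z * z₁ := by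
    rcases hm _ ((mem_normalizer_iff.mp hsn z₁).mp h1) with e | e | e | e
    · exact absurd e (cj1 h11)
    · exact absurd (inj (e.trans hsz.symm)).symm hne
    · exact absurd e hsc
    · exact e
  refine ⟨fun u hu => e1 ▸ hm u hu, fun g hg => ?_⟩
  have f1 : g * z * g⁻¹ = z := by
    rcases hm _ ((mem_normalizer_iff.mp hg z).mp hzZ) with e | e | e | e
    · exact absurd e (cj1 hz1)
    · exact e
    · exact absurd e (h.conj_ne h2 hz hz1 h1 h1' g)
    · refine absurd ?_ (h.conj_ne h2 hz hz1 h1 h1' (s * g))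
      calc _ = s * (g * z * g⁻¹) * s⁻¹ := by group
        _ = (s * z * s⁻¹) * (s * z₁ * s⁻¹) := by rw [e]; group
        _ = _ := by rw [hsz, e1, ← mul_assoc, hzz, one_mul]
  have key : ∀ x : G, x * z * x⁻¹ = z → x * z₁ * x⁻¹ = z₁ → x ∈ centralizer (Om (J T) : Set G) :=
    fun x a b => mem_centralizer_of_forall fun u hu => by
      rcases hm u hu with rfl | rfl | rfl | rfl
      · group
      · exact a
      · exact b
      · calc _ = (x * z * x⁻¹) * (x * z₁ * x⁻¹) := by group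
          _ = _ := by rw [a, b]
  rcases hm _ ((mem_normalizer_iff.mp hg z₁).mp h1) with e | e | e | e
  · exact absurd e (cj1 h11)
  · exact absurd (inj (e.trans f1.symm)).symm hne
  · exact Or.inl (key g f1 e)
  · refine Or.inr (key _ ?_ ?_)
    · calc _ = g * (s * z * s⁻¹) * g⁻¹ := by group
        _ = _ := by rw [hsz, f1]
    · calc _ = g * (s * z₁ * s⁻¹) * g⁻¹ := by group
        _ = (g * z * g⁻¹) * (g * z₁ * g⁻¹) := by rw [e1]; group
        _ = _ := by rw [f1, e, ← mul_assoc, hzz, one_mul]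

theorem cases :
    (Om (S : Subgroup G) = Om (J T) ∧ Nat.card (Om (J T)) = 2) ∨
    (Om (S : Subgroup G) = Om (J T) ∧ Nat.card (Om (J T)) = 4 ∧ T = (S : Subgroup G)) ∨
    (Om T = Om (J T) ∧ Nat.card (Om (J T)) = 4 ∧
      (L ⊓ centralizer (Om (J T) : Set G)).relIndex (normalizer (Om (J T) : Set G)) = 2) := by
  have a1 := h.card_Z
  have a2 := h.Z_card_lt
  have hZ : Om (S : Subgroup G) ≤ Om (J T) := h.Z_le_OmT.trans h.OmT_le
  have a3 := (one_lt_card_iff_ne_bot _).mpr h.Z_ne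
  have a4 := card_dvd_of_le hZ
  obtain ⟨n, hn⟩ : ∃ n, Nat.card (Om (J T)) = 2 ^ n :=
    IsPGroup.iff_card.mp (ea_isPGroup (ea_omegaOneCenter 2 (J T)))
  have hn' : Nat.card (Om (J T)) = 2 ∨ Nat.card (Om (J T)) = 4 := by
    have : n < 3 := by
      by_contra hc
      have := Nat.pow_le_pow_right (by norm_num : 0 < 2) (not_lt.mp hc)
      omega
    interval_cases n <;> omega
  rcases hn' with h2 | h4
  · exact Or.inl ⟨eq_of_le_of_card_le hZ (by omega), h2⟩
  obtain ⟨z₁, h1, h11⟩ := exists_ne_one_of_ne_bot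
    ((one_lt_card_iff_ne_bot (Om (J T) ⊓ centralizer (K : Set G))).mp (by omega))
  have hc1 := h.cent_le h1.1 h1.2 h11
  by_cases e : Om (S : Subgroup G) = Om (J T)
  · refine Or.inr (Or.inl ⟨e, h4, ?_⟩)
    rw [← h.S_inf, inf_eq_left]
    exact (le_centralizer_singleton_iff.mpr (omegaOneCenter_le_centralizer 2 _ (e.ge h1.1))).trans hc1
  have h2 : Nat.card (Om (S : Subgroup G)) = 2 := by
    have := card_lt_of_lt (lt_of_le_of_ne hZ e)
    rw [h4] at a4 this
    have : Nat.card (Om (S : Subgroup G)) = 2 ∨ Nat.card (Om (S : Subgroup G)) = 3 := by omega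
    rcases this with e | e
    · exact e
    · rw [e] at a4; omega
  obtain ⟨z, hz, hz1⟩ := exists_ne_one_of_ne_bot h.Z_ne
  have hCL : centralizer (Om (J T) : Set G) ≤ L :=
    (centralizer_le_centralizer_singleton h1.1).trans hc1
  have hTn : normalizer (T : Set G) ≤ normalizer (Om (J T) : Set G) :=
    (H9.normalizer_le_normalizer_J 2 T).trans (normalizer_le_normalizer_omegaOneCenter 2 _)
  have cc : ∀ {s : G}, s * z₁ * s⁻¹ = z₁ → s ∈ centralizer ({z₁} : Set G) := fun e =>
    mem_centralizer_singleton_iff.mpr (mul_inv_eq_iff_eq_mul.mp e)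
  by_cases hTS : T = (S : Subgroup G)
  · exfalso
    subst hTS
    obtain ⟨s, hs, hsc⟩ : ∃ s ∈ (S : Subgroup G), s * z₁ * s⁻¹ ≠ z₁ := by
      by_contra hc
      push Not at hc
      have hz' : z₁ ∈ Om (S : Subgroup G) := mem_omegaOneCenter_iff.mpr
        ⟨H9.J_le 2 _ (omegaOneCenter_le 2 _ h1.1), fun s hs => mul_inv_eq_iff_eq_mul.mp (hc s hs),
          (ea_omegaOneCenter 2 _).2 _ h1.1⟩
      exact h.conj_ne h2 hz' h11 h1.1 h1.2 1 (by group)
    have hsL := h.TL hs
    obtain ⟨b1, b2⟩ := h.four_case h4 h2 hz hz1 h1.1 h1.2 h11 hs (hTn (le_normalizer hs)) hsc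
    have hN : normalizer (J (S : Subgroup G) : Set G) ≤ L := fun g hg => by
      rcases b2 g (normalizer_le_normalizer_omegaOneCenter 2 _ hg) with c | c
      · exact hCL c
      · simpa using mul_mem (hCL c) (inv_mem hsL)
    obtain ⟨T', K', L', c⟩ := h.second hN
    by_cases e' : J T' = J (S : Subgroup G)
    · have c1 := c.card_Z
      rw [e'] at c1
      obtain ⟨u, hu, hu1⟩ := exists_ne_one_of_ne_bot ((one_lt_card_iff_ne_bot
        (Om (J (S : Subgroup G)) ⊓ centralizer (K' : Set G))).mp (by omega))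
      have hK' := le_centralizer_singleton_iff.mpr hu.2
      rcases b1 u hu.1 with rfl | rfl | rfl | rfl
      · exact hu1 rfl
      · refine c.KM (hK'.trans ?_)
        rw [← H7.centralizer_zpowers,
          ← H9.eq_zpowers_of_card_prime (by rw [h2]; exact Nat.prime_two) hz hz1]
        exact (h.zn.hZ S).trans ((H9.normalizer_le_normalizer_J 2 _).trans hN)
      · exact c.KM (hK'.trans hc1)
      · refine c.KM (hK'.trans ?_)
        rw [← cj_centralizer_singleton]
        exact cj_le_of_le' hsL hc1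
    · have c1 := h.jf.conj _ L K h.ov h.comp h.KL s hsL
      have c2 : cj s K ≤ L := cj_le_of_le' hsL h.KL
      have hne : K ≠ cj s K := fun e0 => by
        have e1 := H9.eq_zpowers_of_card_prime (Y := Om (J (S : Subgroup G)) ⊓
          centralizer (K : Set G)) (by rw [show Nat.card ↥(Om (J (S : Subgroup G)) ⊓
          centralizer (K : Set G)) = 2 by omega]; exact Nat.prime_two) h1 h11
        have m : s * z₁ * s⁻¹ ∈ Om (J (S : Subgroup G)) ⊓ centralizer (K : Set G) := by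
          refine ⟨(mem_normalizer_iff.mp (hTn (le_normalizer hs)) _).mp h1.1, ?_⟩
          rw [e0, ← cj_centralizer]
          exact conj_mem_cj h1.2
        have e2 := H9.eq_zpowers_of_card_prime (Y := Om (J (S : Subgroup G)) ⊓
          centralizer (K : Set G)) (by rw [show Nat.card ↥(Om (J (S : Subgroup G)) ⊓
          centralizer (K : Set G)) = 2 by omega]; exact Nat.prime_two) m
          (fun e => h11 (by rwa [mul_inv_eq_one, mul_eq_left] at e))
        have m2 : z₁ * (s * z₁ * s⁻¹) ∈ Om (J (S : Subgroup G)) ⊓ centralizer (K : Set G) :=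
          mul_mem h1 m
        have hc4 := mem_of_card_four (Z := Om (J (S : Subgroup G))) h4 h1.1 m.1 h11
          (fun e => h11 (by rwa [mul_inv_eq_one, mul_eq_left] at e)) hsc.symm
          (by rw [← sq]; exact (ea_omegaOneCenter 2 _).2 _ h1.1) (hZ hz)
        have : z ∈ centralizer (K : Set G) := by
          rcases hc4 with e | e | e | e
          · exact absurd e hz1
          · exact e ▸ h1.2
          · exact e ▸ m.2
          · exact e ▸ m2.2
        exact h.conj_ne h2 hz hz1 (hZ hz) this 1 (by group)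
      have c3 := card_sup_of_inf_bot (ea_le_centralizer (ea_omegaOneCenter 2 (O2 L))) h.W_le_V
        (h.W_le_V' c1 c2) (h.W_inf c1 c2 hne)
      rw [comp_card h.comp, comp_card c1] at c3
      have := c.ti_lt (ea_omegaOneCenter 2 (O2 L)) h.V_le_T (h.TL.trans h.L_le_V) h.Z_le_V
        (c.ti_of h.max e' (ea_omegaOneCenter 2 _) (h.jf.V_cent _ L h.ov))
      omega
  · obtain ⟨s, hs, hsT⟩ := not_forall₂.mp (show ¬ (S : Subgroup G) ⊓ normalizer (T : Set G) ≤ T from
      fun h' => hTS (eq_of_normalizer_le S.isPGroup' h.TS h'))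
    have hsL : s ∉ L := fun h' => hsT (h.S_inf.le ⟨hs.1, h'⟩)
    obtain ⟨-, b2⟩ := h.four_case h4 h2 hz hz1 h1.1 h1.2 h11 hs.1 (hTn hs.2)
      (fun e => hsL (hc1 (cc e)))
    refine Or.inr (Or.inr ⟨le_antisymm h.OmT_le (le_omegaOneCenter
      ((omegaOneCenter_le 2 _).trans (H9.J_le 2 T)) (le_centralizer_iff.mp fun t ht => ?_)
      (ea_omegaOneCenter 2 _).2), h4, ?_⟩)
    · refine (b2 t (hTn (le_normalizer ht))).resolve_right fun c => hsL ?_
      simpa using mul_mem (inv_mem (h.TL ht)) (hCL c)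
    · rw [inf_eq_right.mpr hCL]
      have d1 := H9.relIndex_dvd_two_of_forall (X := centralizer (Om (J T) : Set G))
        (Y := normalizer (Om (J T) : Set G)) fun a ha b hb ha' hb' => by
          have c1 := (b2 a ha).resolve_left ha'
          have c2 := (b2 b⁻¹ (inv_mem hb)).resolve_left (fun c => hb' (by simpa using inv_mem c))
          simpa [mul_assoc] using mul_mem c1 (inv_mem c2)
      rcases (Nat.dvd_prime Nat.prime_two).mp d1 with e1 | e1
      · exact absurd (hCL (relIndex_eq_one.mp e1 (hTn hs.2))) hsL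
      · exact e1

theorem OmT_eq : Om T = Om (J T) := by
  rcases h.cases with ⟨e, -⟩ | ⟨e, -⟩ | ⟨e, -⟩
  · exact le_antisymm h.OmT_le (e.ge.trans h.Z_le_OmT)
  · exact le_antisymm h.OmT_le (e.ge.trans h.Z_le_OmT)
  · exact e

theorem exists_w : ∃ w ∈ wOf K, w ≠ 1 ∧ w ∈ Om T := by
  obtain ⟨w, hw, h1⟩ := exists_ne_one_of_ne_bot ((one_lt_card_iff_ne_bot _).mp
    (by rw [(h.jf.split T K h.pT h.T_ne h.comp).1]; norm_num))
  exact ⟨w, hw.2, h1, h.OmT_eq ▸ hw.1⟩

theorem T_le_normalizer : T ≤ normalizer (K : Set G) := fun t ht => by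
  obtain ⟨w, hw, h1, h2⟩ := h.exists_w
  exact h.mem_normalizer (h.TL ht) hw h1
    (by rw [omegaOneCenter_le_centralizer 2 _ h2 t ht, mul_inv_cancel_right])

end Cfg

end Cfsg.KS12
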