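import Cfsg.Agent.L0.KS12j

/-! The amalgam of two configurations. -/

set_option autoImplicit false
set_option linter.unusedSectionVars false

namespace Cfsg.KS12

open Subgroup Cfsg.H7
open scoped commutatorElement

/-- the amalgam theorem for the group `G` -/
def AmProp (G : Type*) [Group G] : Prop :=
  ∀ (P₁ P₂ : Subgroup G) [Finite ↥P₁] [Finite ↥P₂] (_ : P₁ ⊔ P₂ = ⊤) (T : Subgroup G)
    (_ : T = P₁ ⊓ P₂)
    (_ : ∀ P ∈ ({P₁, P₂} : Set (Subgroup G)),
      P ⊓ Subgroup.centralizer (Cfsg.pCoreOf 2 P : Set G) ≤ Cfsg.pCoreOf 2 P)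
    (_ : ∀ P ∈ ({P₁, P₂} : Set (Subgroup G)), ∃ S : Sylow 2 ↥P, (S : Subgroup ↥P) = T.subgroupOf P)
    (_ : ∀ N : Subgroup G, N.Normal → N ≤ T → N = ⊥)
    (_ : ∀ P ∈ ({P₁, P₂} : Set (Subgroup G)),
      Nonempty (↥P ⧸ Cfsg.pCore 2 ↥P ≃* Equiv.Perm (Fin 3)))
    (_ : ∀ P ∈ ({P₁, P₂} : Set (Subgroup G)), ¬ P ≤ Subgroup.centralizer
      (Cfsg.omegaOne 2 (T ⊓ Subgroup.centralizer (T : Set G)) : Set G)),
    (Nonempty (↥P₁ ≃* Equiv.Perm (Fin 4)) ∧ Nonempty (↥P₂ ≃* Equiv.Perm (Fin 4))) ∨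
      (Nonempty (↥P₁ ≃* Multiplicative (ZMod 2) × Equiv.Perm (Fin 4)) ∧
        Nonempty (↥P₂ ≃* Multiplicative (ZMod 2) × Equiv.Perm (Fin 4)))

theorem quot_equiv_perm {P : Type*} [Group P] [Finite P] (T : Sylow 2 P)
    (h3 : (T : Subgroup P).index = 3) (h6 : (pCore 2 P).index = 6) :
    Nonempty (P ⧸ pCore 2 P ≃* Equiv.Perm (Fin 3)) := by
  classical
  have e : (MulAction.toPermHom P (P ⧸ (T : Subgroup P))).ker = pCore 2 P := by
    rw [← normalCore_eq_ker]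
    exact le_antisymm (le_pCore (T.isPGroup'.to_le (normalCore_le _)))
      (normal_le_normalCore.mpr (pCore_le_sylow T))
  have hc : Nat.card (P ⧸ (T : Subgroup P)) = 3 := h3
  have hs : Function.Surjective (MulAction.toPermHom P (P ⧸ (T : Subgroup P))) := by
    rw [← MonoidHom.range_eq_top]
    refine eq_top_of_card_eq _ ?_
    rw [← index_ker, e, h6, Nat.card_perm, hc]; rfl
  exact ⟨((QuotientGroup.quotientMulEquivOfEq e.symm).trans
    (QuotientGroup.quotientKerEquivOfSurjective _ hs)).trans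
    (Finite.equivFinOfCardEq hc).permCongrHom⟩

theorem sq_of_mem_pCore_S4 {x : Equiv.Perm (Fin 4)} (hx : x ∈ pCore 2 (Equiv.Perm (Fin 4))) :
    x * x = 1 := by
  have key : ∀ x : Equiv.Perm (Fin 4), x * x = 1 ∨ ∃ g : Equiv.Perm (Fin 4),
      (x * (g * x * g⁻¹)) ^ 3 = 1 ∧ x * (g * x * g⁻¹) ≠ 1 := by decide +kernel
  refine (key x).resolve_right fun ⟨g, h3, h1⟩ => h1 ?_
  have : Fact (Nat.Prime 3) := ⟨Nat.prime_three⟩
  obtain ⟨k, hk⟩ := isPGroup_iff_mem.mp (isPGroup_pCore 2 _) _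
    (mul_mem hx ((inferInstance : (pCore 2 (Equiv.Perm (Fin 4))).Normal).conj_mem x hx g))
  refine eq_one_of_coprime_of_pow ?_ hk
  rw [orderOf_eq_prime h3 h1]; norm_num

variable {G : Type*} [Group G] [Finite G]

theorem ea_of_sq {A : Subgroup G} (h : ∀ a ∈ A, a * a = 1) : IsElementaryAbelian 2 A :=
  isElementaryAbelian_iff.mpr ⟨fun a ha b hb => by
    rw [← H9.inv_eq_self_of_sq (h _ (mul_mem hb ha)), mul_inv_rev, H9.inv_eq_self_of_sq (h a ha),
      H9.inv_eq_self_of_sq (h b hb)], fun a ha => by rw [sq, h a ha]⟩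

/-- the shape of the members of the amalgam -/
def Shape (P₁ P₂ : Subgroup G) : Prop :=
  (Nonempty (↥P₁ ≃* Equiv.Perm (Fin 4)) ∧ Nonempty (↥P₂ ≃* Equiv.Perm (Fin 4))) ∨
    (Nonempty (↥P₁ ≃* Multiplicative (ZMod 2) × Equiv.Perm (Fin 4)) ∧
      Nonempty (↥P₂ ≃* Multiplicative (ZMod 2) × Equiv.Perm (Fin 4)))

theorem Shape.symm {P₁ P₂ : Subgroup G} (h : Shape P₁ P₂) : Shape P₂ P₁ :=
  h.imp And.symm And.symm

theorem Shape.ea {P₁ P₂ : Subgroup G} (h : Shape P₁ P₂) :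
    IsElementaryAbelian 2 (O2 P₁) ∧ Nat.card P₁ ≤ 48 := by
  have c4 : Nat.card (Equiv.Perm (Fin 4)) = 24 := by
    rw [Nat.card_perm, Nat.card_eq_fintype_card, Fintype.card_fin]; rfl
  rcases h with ⟨⟨e⟩, -⟩ | ⟨⟨e⟩, -⟩
  · refine ⟨ea_of_sq ?_, by rw [Nat.card_congr e.toEquiv, c4]; norm_num⟩
    rintro _ ⟨x, hx, rfl⟩
    have := sq_of_mem_pCore_S4 (map_pCore_le (f := e.toMonoidHom) e.surjective ⟨x, hx, rfl⟩)
    have h2 : x * x = 1 := e.injective (by simpa using this)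
    simpa using congrArg Subtype.val h2
  · refine ⟨ea_of_sq ?_, by rw [Nat.card_congr e.toEquiv, Nat.card_prod, c4]; simp⟩
    rintro _ ⟨x, hx, rfl⟩
    have := sq_of_mem_pCore_S4 (map_pCore_le (f := (MonoidHom.snd _ _).comp e.toMonoidHom)
      (Prod.snd_surjective.comp e.surjective) ⟨x, hx, rfl⟩)
    have h2 : x * x = 1 := e.injective (by
      rw [map_mul, map_one]
      refine Prod.ext ?_ this
      have : ∀ c : Multiplicative (ZMod 2), c * c = 1 := by decide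
      exact this _)
    simpa using congrArg Subtype.val h2

/-- the properties of `P = K T` -/
structure Par (T P : Subgroup G) : Prop where
  cent : centralizer (O2 P : Set G) ≤ O2 P
  syl : IsSylowIn 2 T P
  idx3 : T.relIndex P = 3
  idx : (O2 P).relIndex P = 6
  na : ¬ ⁅P, P⁆ ≤ O2 P
  nc : ⁅Om T, P⁆ ≠ ⊥

theorem Par.idx2 {T P : Subgroup G} (h : Par T P) : (O2 P).relIndex T = 2 := by
  have := relIndex_mul_relIndex (O2 P) T P h.syl.pCoreOf_le h.syl.le
  rw [h.idx, h.idx3] at this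
  omega

theorem shape_of (am : ∀ H : Subgroup G, AmProp H) {T P₁ P₂ : Subgroup G} (h1 : Par T P₁)
    (h2 : Par T P₂) (hO : O2 (P₁ ⊔ P₂) = ⊥) : Shape P₁ P₂ := by
  have hT : T = P₁ ⊓ P₂ := by
    refine ((H9.eq_or_eq_of_relIndex_prime (by rw [h1.idx3]; exact Nat.prime_three)
      (le_inf h1.syl.le h2.syl.le) inf_le_left).resolve_right fun e => ?_).symm
    have e1 : P₁ ≤ P₂ := e.ge.trans inf_le_right
    rcases H9.eq_or_eq_of_relIndex_prime (by rw [h2.idx3]; exact Nat.prime_three) h1.syl.le e1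
      with e2 | e2
    · have := h1.idx3
      rw [e2, relIndex_self] at this; omega
    · rw [e2, sup_idem] at hO
      refine h2.nc (eq_bot_iff.mpr ((commutator_le_right_of_le_normalizer
        (le_normalizer_of_le ((omegaOneCenter_le 2 T).trans h2.syl.le))).trans ?_))
      rw [← hO]
      refine le_trans ?_ h2.cent
      rw [hO, centralizer_bot']; exact le_top
  set H := P₁ ⊔ P₂ with hH
  have hTH : T ≤ H := h1.syl.le.trans le_sup_left
  have hall : ∀ P ∈ ({P₁.subgroupOf H, P₂.subgroupOf H} : Set (Subgroup H)),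
      ∃ P', P = P'.subgroupOf H ∧ P' ≤ H ∧ Par T P' := by
    rintro P (rfl | rfl)
    exacts [⟨P₁, rfl, le_sup_left, h1⟩, ⟨P₂, rfl, le_sup_right, h2⟩]
  have := am H (P₁.subgroupOf H) (P₂.subgroupOf H)
    (by rw [← subgroupOf_sup le_sup_left le_sup_right, subgroupOf_self]) (T.subgroupOf H)
    (by rw [hT]; rfl) ?_ ?_ ?_ ?_ ?_
  · have e1 := subgroupOfEquivOfLe (show P₁ ≤ H from le_sup_left)
    have e2 := subgroupOfEquivOfLe (show P₂ ≤ H from le_sup_right)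
    exact this.imp (fun ⟨⟨a⟩, ⟨b⟩⟩ => ⟨⟨e1.symm.trans a⟩, ⟨e2.symm.trans b⟩⟩)
      (fun ⟨⟨a⟩, ⟨b⟩⟩ => ⟨⟨e1.symm.trans a⟩, ⟨e2.symm.trans b⟩⟩)
  · intro P hP
    obtain ⟨P', rfl, hle, h⟩ := hall P hP
    rw [pCoreOf_subgroupOf_eq hle, centralizer_subgroupOf ((pCoreOf_le 2 P').trans hle)]
    exact fun x hx => h.cent hx.2
  · intro P hP
    obtain ⟨P', rfl, hle, h⟩ := hall P hP
    exact ⟨(h.syl.subgroupOf hle).toSylow, rfl⟩
  · intro N hN hNT
    have : N ≤ pCore 2 H := le_pCore ((isPGroup_subgroupOf h1.syl.isPGroup H).to_le hNT)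
    rwa [pCoreOf_eq_bot_iff.mp hO, le_bot_iff] at this
  · intro P hP
    obtain ⟨P', rfl, hle, h⟩ := hall P hP
    refine quot_equiv_perm (h.syl.subgroupOf hle).toSylow ?_ ?_
    · exact (relIndex_subgroupOf hle).trans h.idx3
    · rw [← pCoreOf_subgroupOf, pCoreOf_subgroupOf_eq hle]
      exact (relIndex_subgroupOf hle).trans h.idx
  · intro P hP hc
    obtain ⟨P', rfl, hle, h⟩ := hall P hP
    refine h.nc (commutator_eq_bot_iff'.mpr fun x hx v hv => ?_)
    have hv' : (⟨v, hTH (omegaOneCenter_le 2 T hv)⟩ : H) ∈ omegaOneCenter 2 (T.subgroupOf H) := by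
      rw [← mem_map_iff_mem H.subtype_injective, map_omegaOneCenter_subtype,
        subgroupOf_map_subtype, inf_of_le_left hTH]
      exact hv
    exact congrArg Subtype.val (hc (show (⟨x, hle hx⟩ : H) ∈ P'.subgroupOf H from hx) _ hv')

namespace Cfg

variable {S : Sylow 2 G} {M T K L : Subgroup G} (h : Cfg S M T K L)
include h

theorem PL : K ⊔ T ≤ L := sup_le h.KL h.TL

theorem Q_le_R : O2 L ≤ O2 (K ⊔ T) := O2_le_O2_sup h.syl h.KL

theorem par : Par T (K ⊔ T) := by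
  have k := (jc h.comp).k3
  have hO := h.OK_le.trans h.Q_le
  have i3 := k.relIndex_sup h.pT h.T_le_normalizer hO
  have hs := k.isSylowIn_sup h.pT h.T_le_normalizer hO
  refine ⟨(centralizer_anti h.Q_le_R).trans (h.cent_Q.trans h.Q_le_R), hs, i3, ?_, fun hc => ?_,
    fun e => ?_⟩
  · rw [← relIndex_mul_relIndex _ T _ hs.pCoreOf_le hs.le, i3]
    rcases (Nat.dvd_prime Nat.prime_two).mp (k.relIndex_pCoreOf_sup h.pT h.T_le_normalizer hO)
      with e | e
    · exact absurd ((H9.J_le 2 T).trans (relIndex_eq_one.mp e))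
        ((jc h.comp).not_le_pCoreOf le_sup_left)
    · rw [e]
  · refine k.not_le' (isPGroup_pCoreOf 2 _) (le_trans ?_ hc)
    nth_rw 1 [← comp_comm h.comp]
    exact commutator_mono le_sup_left ((H9.J_le 2 T).trans le_sup_right)
  · obtain ⟨w, hw, h1, h2⟩ := h.exists_w
    exact h1 ((comp_W_inf h.comp).le ⟨hw, centralizer_anti le_sup_left
      (commutator_eq_bot_iff_le_centralizer.mp e h2)⟩)

variable {S' : Sylow 2 G} {M' K' L' : Subgroup G} (h' : Cfg S' M' T K' L') (hne : L ≠ L')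
include h' hne

theorem not_le : ¬ K' ≤ L := fun hle => hne (h.max.2 L' h'.max.1 (h'.uniq h.max.1 hle h.JL)).symm

theorem O2_sup : O2 ((K ⊔ T) ⊔ (K' ⊔ T)) = ⊥ := by
  by_contra e
  have hn := le_normalizer_pCoreOf 2 ((K ⊔ T) ⊔ (K' ⊔ T))
  exact h.not_le h' hne ((le_sup_left.trans (le_sup_right.trans hn)).trans
    (h.uniq (isTwoLocal_normalizer (isPGroup_pCoreOf 2 _) e)
      (le_sup_left.trans (le_sup_left.trans hn))
      ((H9.J_le 2 T).trans (le_sup_right.trans (le_sup_left.trans hn)))))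

theorem shape (am : ∀ H : Subgroup G, AmProp H) : Shape (K ⊔ T) (K' ⊔ T) :=
  shape_of am h.par h'.par (h.O2_sup h' hne)

end Cfg

end Cfsg.KS12
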