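import Cfsg.Agent.L0.KS12e

/-! The final analysis. -/

set_option autoImplicit false
set_option linter.unusedSectionVars false

namespace Cfsg.KS12

open Subgroup Cfsg.H7
open scoped commutatorElement

variable {G : Type*} [Group G] [Finite G]

theorem le_or_le_of_cover {A R₁ R₂ : Subgroup G} (h : ∀ a ∈ A, a ∈ R₁ ∨ a ∈ R₂) :
    A ≤ R₁ ∨ A ≤ R₂ := by
  by_contra hc
  push Not at hc
  obtain ⟨a, ha, ha'⟩ := not_forall₂.mp hc.1
  obtain ⟨b, hb, hb'⟩ := not_forall₂.mp hc.2
  rcases h _ (mul_mem ha hb) with e | e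
  · exact ha' (by simpa using mul_mem e (inv_mem ((h b hb).resolve_right hb')))
  · exact hb' (by simpa using mul_mem (inv_mem ((h a ha).resolve_left ha')) e)

/-- two elementary abelian subgroups of index two in a non-abelian group -/
theorem two_ea {T R₁ R₂ : Subgroup G} (e1 : IsElementaryAbelian 2 R₁)
    (e2 : IsElementaryAbelian 2 R₂) (l1 : R₁ ≤ T) (l2 : R₂ ≤ T) (i1 : R₁.relIndex T = 2)
    (i2 : R₂.relIndex T = 2) (hne : ¬ R₁ ≤ R₂) (c1 : centralizer (R₁ : Set G) ≤ R₁) :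
    R₁ ⊓ R₂ ≤ centralizer (T : Set G) ∧ ∀ t ∈ T, t * t = 1 → t ∈ R₁ ∨ t ∈ R₂ := by
  have p1 : (R₁.relIndex T).Prime := by rw [i1]; exact Nat.prime_two
  have p2 : (R₂.relIndex T).Prime := by rw [i2]; exact Nat.prime_two
  have hT : R₂ ⊔ R₁ = T := (H9.eq_or_eq_of_relIndex_prime p2 le_sup_left (sup_le l2 l1)).resolve_left
    fun e => hne (le_sup_right.trans e.le)
  have hc : R₁ ⊓ R₂ ≤ centralizer (T : Set G) := by
    rw [← hT, centralizer_sup]
    exact le_inf (inf_le_right.trans (ea_le_centralizer e2)) (inf_le_left.trans (ea_le_centralizer e1))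
  refine ⟨hc, fun t ht h2 => ?_⟩
  by_contra hn
  push Not at hn
  obtain ⟨r, hr, hr'⟩ := not_forall₂.mp hne
  have m := H9.mul_mem_of_relIndex_two (dvd_of_eq i2) ht (l1 hr) hn.2 hr'
  have s1 : r * r = 1 := by rw [← sq]; exact e1.2 r hr
  have s2 : t * r * (t * r) = 1 := by rw [← sq]; exact e2.2 _ m
  have hcomm : r * t = t * r := by
    rw [← H9.inv_eq_self_of_sq s2, mul_inv_rev, H9.inv_eq_self_of_sq s1, H9.inv_eq_self_of_sq h2]
  refine hn.1 (c1 ?_)
  have : (R₂.relIndex R₁).Prime := by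
    have d : R₂.relIndex R₁ ∣ 2 := H9.relIndex_dvd_two_of_forall fun a ha b hb ha' hb' =>
      H9.mul_mem_of_relIndex_two (dvd_of_eq i2) (l1 ha) (l1 hb) ha' hb'
    rcases (Nat.dvd_prime Nat.prime_two).mp d with e | e
    · exact absurd (relIndex_eq_one.mp e) hne
    · rw [e]; exact Nat.prime_two
  rw [← H9.sup_zpowers_eq_of_relIndex_prime this hr hr', centralizer_sup, H7.centralizer_zpowers]
  exact ⟨le_centralizer_iff.mp (by rw [inf_comm]; exact hc) ht,
    mem_centralizer_singleton_iff.mpr hcomm.symm⟩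

namespace Cfg

variable {S : Sylow 2 G} {M T K L : Subgroup G} (h : Cfg S M T K L)
include h

theorem conj_ne' {g : G} (hg : g ∉ L) : L ≠ cj g L := fun e => hg (mem_of_cj_le h.max e.ge)

/-- an elementary abelian subgroup invariant under an element of `N(T)` outside `L` is central -/
theorem central (am : ∀ H : Subgroup G, AmProp H) {s : G} (hs : s ∈ normalizer (T : Set G))
    (hsL : s ∉ L) {A : Subgroup G} (hA : IsElementaryAbelian 2 A) (hAT : A ≤ T)
    (hsA : s ∈ normalizer (A : Set G)) : A ≤ centralizer (T : Set G) := by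
  have h' := h.conj hs
  have hne := h.conj_ne' hsL
  have sh := h.shape h' hne am
  have e : O2 (cj s K ⊔ T) = cj s (O2 (K ⊔ T)) := by
    rw [cj_pCoreOf, cj_sup, cj_eq_of_mem_normalizer hs]
  have hnl : ¬ O2 (K ⊔ T) ≤ O2 (cj s K ⊔ T) := fun hle => by
    have e1 : O2 (K ⊔ T) = O2 (cj s K ⊔ T) := eq_of_le_of_card_le hle (by rw [e, card_cj])
    refine IsTwoLocal.O2_ne_bot h.max.1 (eq_bot_iff.mpr (h.Q_le_R.trans ?_))
    rw [← h.O2_sup h' hne]
    refine le_pCoreOf (isPGroup_pCoreOf 2 _) ((pCoreOf_le 2 _).trans le_sup_left)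
      (sup_le (le_normalizer_pCoreOf 2 _) ?_)
    rw [e1]; exact le_normalizer_pCoreOf 2 _
  obtain ⟨a1, a2⟩ := two_ea sh.ea.1 sh.symm.ea.1 h.par.syl.pCoreOf_le h'.par.syl.pCoreOf_le
    h.par.idx2 h'.par.idx2 hnl h.par.cent
  have eA := cj_eq_of_mem_normalizer hsA
  refine le_trans ?_ a1
  rcases le_or_le_of_cover fun a ha => a2 a (hAT ha) (by rw [← sq]; exact hA.2 a ha) with c | c
  · exact le_inf c (by rw [e, ← eA]; exact cj_mono c)
  · refine le_inf ?_ c
    rw [e, ← eA] at c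
    exact map_le_map_iff_of_injective (MulAut.conj s).injective |>.mp c

theorem normalizer_J_S (hN : normalizer (T : Set G) ≤ L) :
    normalizer (J (S : Subgroup G) : Set G) ≤ L := by
  have e := h.T_eq_of hN
  subst e
  refine (normalizer_le_normalizer_omegaOneCenter 2 _).trans (le_trans ?_ hN)
  have e := h.OmT_eq
  unfold Om at e
  rw [← e]
  refine (normalizer_le_normalizer_centralizer _).trans
    ((normalizer_le_normalizer_pCoreOf 2 _).trans (le_of_eq ?_))
  congr 2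
  refine le_antisymm ((isSylowIn_of_sylow S (le_centralizer_omegaOneCenter 2 _)).pCoreOf_le) ?_
  exact le_pCoreOf S.isPGroup' (le_centralizer_omegaOneCenter 2 _) (h.zn.hZ S)

theorem exists_pair (am : ∀ H : Subgroup G, AmProp H) :
    ∃ (M' K' L' : Subgroup G), Cfg S M' T K' L' ∧ L ≠ L' := by
  by_cases hN : normalizer (T : Set G) ≤ L
  swap
  · obtain ⟨g, hg, hgL⟩ := not_forall₂.mp hN
    exact ⟨M, _, _, h.conj hg, h.conj_ne' hgL⟩
  obtain ⟨T', K', L', c⟩ := h.second (h.normalizer_J_S hN)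
  have e := h.T_eq_of hN
  subst e
  by_cases hTS : T' = (S : Subgroup G)
  · subst hTS
    exact ⟨L, K', L', c, fun e => c.KM (e ▸ c.KL)⟩
  exfalso
  obtain ⟨s, hs, hsT⟩ := not_forall₂.mp (show ¬ (S : Subgroup G) ⊓ normalizer (T' : Set G) ≤ T' from
    fun h' => hTS (eq_of_normalizer_le S.isPGroup' c.TS h'))
  have hsL : s ∉ L' := fun h' => hsT (c.S_inf.le ⟨hs.1, h'⟩)
  by_cases e' : J T' = J (S : Subgroup G)
  · have k := jc h.comp
    have := c.central am hs.2 hsL (ea_wOf K) ((k.wOf_le_J h.pJ).trans (e'.ge.trans (H9.J_le 2 _)))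
      (normalizer_le_normalizer_wOf K (h.T_le_normalizer hs.1))
    exact k.not_le_centralizer (e'.ge.trans ((H9.J_le 2 _).trans (le_centralizer_iff.mp this)))
  · have hY := ea_omegaOneCenter 2 (O2 L)
    refine c.ti_not_le hY h.V_le_T (h.TL.trans h.L_le_V) h.Z_le_V
      (c.ti_of h.max e' hY (h.jf.V_cent _ L h.ov)) (comp_card h.comp ▸ card_le_of_le h.W_le_V) ?_
    exact (c.central am hs.2 hsL (ea_mono hY inf_le_left) inf_le_right
      (le_normalizer_inf (zpowers_le.mpr (h.L_le_V (h.TL hs.1))) (zpowers_le.mpr hs.2)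
        (mem_zpowers s))).trans ((centralizer_anti c.Q_le).trans c.cent_Q)

theorem eq_P (he : IsElementaryAbelian 2 (O2 (K ⊔ T))) (hc : Nat.card ↥(K ⊔ T) ≤ 48) :
    K ⊔ T = L := by
  have eQ : O2 (K ⊔ T) = O2 L := le_antisymm
    ((ea_le_centralizer he).trans ((centralizer_anti h.Q_le_R).trans h.cent_Q)) h.Q_le_R
  have c1 := relIndex_mul_card_of_le (pCoreOf_le 2 (K ⊔ T))
  have i6 := h.par.idx
  unfold O2 at eQ i6 he
  rw [i6, eQ] at c1
  have c2 := card_le_of_le (omegaOneCenter_le 2 (pCoreOf 2 L))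
  have hVc := ea_le_centralizer (ea_omegaOneCenter 2 (O2 L))
  have hK : L ≤ normalizer (K : Set G) := fun g hg => by
    rw [mem_normalizer_iff_cj]
    by_contra hne
    have c := h.jf.conj _ L K h.ov h.comp h.KL g hg
    have c' : cj g K ≤ L := cj_le_of_le' hg h.KL
    have c3 := card_sup_of_inf_bot hVc h.W_le_V (h.W_le_V' c c') (h.W_inf c c' (Ne.symm hne))
    rw [comp_card h.comp, comp_card c] at c3
    unfold O2 at c3
    omega
  obtain ⟨F, hF⟩ := h.zn.js h.ov
  obtain ⟨a1, a2⟩ := hF.act h.KL (jc h.comp)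
  have c3 := relIndex_mul_card_inf (centralizer (K : Set G)) (omegaOneCenter 2 (pCoreOf 2 L))
  rw [a2, inf_comm] at c3
  have hn : L ≤ normalizer ((omegaOneCenter 2 (pCoreOf 2 L) ⊓ centralizer (K : Set G) :
      Subgroup G) : Set G) := le_normalizer_inf h.L_le_V (le_normalizer_centralizer hK)
  have d1 := H9.relIndex_centralizer_dvd_factorial hn
  have hp : 0 < Nat.card ↥(omegaOneCenter 2 (pCoreOf 2 L) ⊓ centralizer (K : Set G)) :=
    Nat.card_pos
  have f1 : (Nat.card ↥(omegaOneCenter 2 (pCoreOf 2 L) ⊓ centralizer (K : Set G)) - 1).factorial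
      = 1 := Nat.factorial_eq_one.mpr (by omega)
  rw [f1, Nat.dvd_one, relIndex_eq_one] at d1
  have hV : pCoreOf 2 L = omegaOneCenter 2 (pCoreOf 2 L) :=
    le_antisymm (le_omegaOneCenter le_rfl (eQ ▸ ea_le_centralizer he) (eQ ▸ he.2))
      (omegaOneCenter_le 2 _)
  have hC : centralizer (wOf K : Set G) ⊓ L ≤ pCoreOf 2 L := by
    refine le_trans ?_ h.cent_Q
    unfold O2
    rw [hV, ← a1, centralizer_sup]
    exact inf_le_inf_left _ d1
  have d2 := H9.relIndex_centralizer_dvd_factorial (hK.trans (normalizer_le_normalizer_wOf K))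
  rw [comp_card h.comp, ← inf_relIndex_right] at d2
  have d3 := (relIndex_dvd_of_le_left L hC).trans d2
  have c4 := relIndex_mul_card_of_le (pCoreOf_le 2 L)
  refine eq_of_le_of_card_le h.PL ?_
  rw [← c4, ← c1]
  exact Nat.mul_le_mul_right _ (Nat.le_of_dvd (by decide) d3)

end Cfg

theorem Setup.exists_pair (am : ∀ H : Subgroup G, AmProp H) {S : Sylow 2 G} {M T : Subgroup G}
    (h : Setup S M T) : ∃ (S' : Sylow 2 G) (M' K L K' L' : Subgroup G),
      Cfg S' M T K L ∧ Cfg S' M' T K' L' ∧ L ≠ L' := by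
  obtain ⟨K, hK⟩ := h.exists_outside h.jf
  obtain ⟨S', L, c⟩ := h.exists_cfg' hK
  obtain ⟨M', K', L', c', hne⟩ := c.exists_pair am
  exact ⟨S', M', K, L, K', L', c, c', hne⟩

end Cfsg.KS12
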