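import Cfsg.Agent.L0.KS12d
import Cfsg.Agent.H9.JComp

/-! The component facts follow from the standing hypotheses. -/

set_option autoImplicit false
set_option linter.unusedSectionVars false

namespace Cfsg.KS12

open Subgroup Cfsg.H7
open scoped commutatorElement

variable {G : Type*} [Group G] [Finite G]

theorem jc {T K : Subgroup G} (h : IsJComponent T K) : H9.JC (J T) K := H9.isJComponent_iff.mp h

theorem ZN.js (zn : ZN G) {T L : Subgroup G} (h : L ∈ jOvergroups T) : ∃ F, H9.JS T L F :=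
  H9.exists_js zn.hN zn.hZ h

theorem ZN.jf (zn : ZN G) : JF G where
  W T L K h c hl := (zn.js h).elim fun _ hF => hF.wOf_eq hl (jc c)
  O2_le T L K h c hl := (zn.js h).elim fun _ hF => hF.pCoreOf_le hl (jc c)
  norm T L K K' h c hl c' hl' := (zn.js h).elim fun _ hF =>
    hF.le_normalizer_comp hl (jc c) hl' (jc c')
  cent T L K K' h c hl c' hl' hne := (zn.js h).elim fun _ hF =>
    (hF.pair hl (jc c) hl' (jc c') hne).2
  conj T L K h c hl g hg := (zn.js h).elim fun _ hF =>
    H9.isJComponent_iff.mpr (hF.jc_cj hl (jc c) hg)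
  gen T L h := (zn.js h).elim fun _ hF => hF.le_sup.trans (sup_le_sup
    (sSup_le_sSup fun K hK => ⟨H9.isJComponent_iff.mpr hK.2, hK.1⟩) inf_le_right)
  V_le T L h := (zn.js h).elim fun _ hF => hF.V_le_J
  V_cent T L h v hv := (zn.js h).elim fun _ hF => by
    obtain ⟨g, hg, h1⟩ := hF.exists_conj_mem_centralizer hv
    refine ⟨g⁻¹, inv_mem hg, ?_⟩
    rw [← cj_centralizer, mem_cj, inv_inv]
    exact h1
  split T K hT _ hK := by
    have h := jc hK
    have hJ := H9.isPGroup_J hT
    refine ⟨h.card_omega_inf hJ, le_antisymm (sup_le inf_le_left inf_le_left) ?_⟩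
    refine (h.omega_eq hJ).ge.trans (sup_le_sup_right (le_inf inf_le_left (le_inf ?_ ?_)) _)
    · exact inf_le_left.trans ((H7.omegaOneCenter_le 2 _).trans le_sup_right)
    · rw [centralizer_sup]
      exact le_inf inf_le_right (inf_le_left.trans (H7.omegaOneCenter_le_centralizer 2 _))

theorem Setup.jf {S : Sylow 2 G} {M T : Subgroup G} (h : Setup S M T) : JF G := h.zn.jf

theorem Setup.exists_cfg' {S : Sylow 2 G} {M T K : Subgroup G} (h : Setup S M T)
    (hK : K ∈ jComponentsOutside M T) : ∃ S' L, Cfg S' M T K L := by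
  obtain ⟨S', h', hTS⟩ := h.exists_le
  obtain ⟨L, hL⟩ := h'.exists_cfg h.jf hTS hK
  exact ⟨S', L, hL⟩

theorem Cfg.sn {S : Sylow 2 G} {M T K L : Subgroup G} (h : Cfg S M T K L) :
    (K.subgroupOf L).IsSubnormal :=
  (h.zn.js h.ov).elim fun _ hF => (L0.sn_iff.mp (hF.sn h.KL (jc h.comp))).2

end Cfsg.KS12
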